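import Cfsg.Agent.Helper3.CNQuot
import Cfsg.Agent.Helper3.FStar
import Cfsg.Agent.Helper7.TICount
import Cfsg.Agent.Helper7.Conj
import Cfsg.Prelude.Def_OddOrderLocal

/-! CN-groups with a normal Sylow subgroup: Frobenius structure, nilpotent complement. -/

set_option autoImplicit false

universe u

namespace Cfsg.Agent.Helper3

theorem mem_zpowers_of_prime_order {G : Type*} [Group G] [Finite G] {q : ℕ} (hq : q.Prime)
    {x u : G} (hx : orderOf x = q) (hu : u ∈ Subgroup.zpowers x) (hu1 : u ≠ 1) :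
    x ∈ Subgroup.zpowers u := by
  have hle : Subgroup.zpowers u ≤ Subgroup.zpowers x := (Subgroup.zpowers_le).mpr hu
  have hdvd : orderOf u ∣ q := by
    have h := Subgroup.orderOf_dvd_natCard (Subgroup.zpowers x) hu
    rwa [Nat.card_zpowers, hx] at h
  have huo : orderOf u = q := by
    rcases (Nat.dvd_prime hq).mp hdvd with h | h
    · exact absurd (orderOf_eq_one_iff.mp h) hu1
    · exact h
  have heq : Subgroup.zpowers u = Subgroup.zpowers x :=
    Subgroup.eq_of_le_of_card_ge hle (by rw [Nat.card_zpowers, Nat.card_zpowers, hx, huo])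
  rw [heq]
  exact Subgroup.mem_zpowers x

/-- A CN-group in which commuting elements of the same prime order generate the same subgroup,
and elements of prime order normalizing a subgroup of another prime order centralize it, is
nilpotent. -/
theorem nilpotent_of_cn_of_frob {E : Type*} [Group E] [Finite E] (hCN : Cfsg.IsCNGroup E)
    (h1 : ∀ (q : ℕ) (x w : E), q.Prime → orderOf x = q → orderOf w = q → x * w = w * x →
      w ∈ Subgroup.zpowers x)
    (h2 : ∀ (q s : ℕ) (x g : E), q.Prime → s.Prime → q ≠ s → orderOf x = q → orderOf g = s →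
      g * x * g⁻¹ ∈ Subgroup.zpowers x → g * x = x * g) : Group.IsNilpotent E := by
  classical
  by_contra hnn
  have hne1 : ∀ (z : E) (p : ℕ), p.Prime → orderOf z = p → z ≠ 1 := by
    intro z p hp hz h
    rw [h, orderOf_one] at hz
    exact hp.one_lt.ne hz
  have hpp : ∀ u : E, u ≠ 1 → ∃ (s : ℕ) (k : ℕ), s.Prime ∧ orderOf (u ^ k) = s := by
    intro u hu
    have hox : orderOf u ≠ 1 := fun h => hu (orderOf_eq_one_iff.mp h)
    obtain ⟨s, hs, hsx⟩ := Nat.exists_prime_and_dvd hox
    exact ⟨s, orderOf u / s, hs, orderOf_pow_orderOf_div (orderOf_pos u).ne' hsx⟩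
  -- Step 1: normalizer of ⟨x⟩ centralizes x
  have hNC : ∀ (q : ℕ) (x g : E), q.Prime → orderOf x = q →
      g * x * g⁻¹ ∈ Subgroup.zpowers x → g * x = x * g := by
    intro q x g hq hxo hg
    have hx1 := hne1 x q hq hxo
    have hgN : g ∈ Subgroup.normalizer (Subgroup.zpowers x : Set E) := by
      apply Helper5.mem_normalizer_of_conj_le
      rw [MonoidHom.map_zpowers]
      exact (Subgroup.zpowers_le).mpr hg
    have hmem : g ∈ Subgroup.centralizer ({x} : Set E) := by
      apply mem_of_prime_pow_powers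
      rintro k ⟨s, hs, b, hb⟩
      obtain ⟨u, hu⟩ : ∃ u : E, u = g ^ k := ⟨_, rfl⟩
      rw [← hu] at hb ⊢
      have huN : u ∈ Subgroup.normalizer (Subgroup.zpowers x : Set E) := by
        rw [hu]
        exact Subgroup.zpow_mem _ hgN k
      rw [Helper5.mem_centralizer_singleton_iff]
      by_cases hsq : s = q
      · rw [hsq] at hb
        haveI : Fact q.Prime := ⟨hq⟩
        have hXp : IsPGroup q (Subgroup.zpowers x) :=
          IsPGroup.of_card (n := 1) (by rw [Nat.card_zpowers, hxo, pow_one])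
        have hUp : IsPGroup q (Subgroup.zpowers u) :=
          IsPGroup.of_card (n := b) (by rw [Nat.card_zpowers, hb])
        have hUN : Subgroup.zpowers u ≤ Subgroup.normalizer (Subgroup.zpowers x : Set E) :=
          (Subgroup.zpowers_le).mpr huN
        obtain ⟨T, hT⟩ : ∃ T : Subgroup E, T = Subgroup.zpowers x ⊔ Subgroup.zpowers u :=
          ⟨_, rfl⟩
        have hTp : IsPGroup q ↥T := by
          rw [hT]
          exact IsPGroup.to_sup_of_normal_left' hXp hUp hUN
        have hXT : Subgroup.zpowers x ≤ T := by rw [hT]; exact le_sup_left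
        have huT : u ∈ T := by
          rw [hT]
          exact (le_sup_right (a := Subgroup.zpowers x)) (Subgroup.mem_zpowers u)
        have hTN : T ≤ Subgroup.normalizer (Subgroup.zpowers x : Set E) := by
          rw [hT]
          exact sup_le Subgroup.le_normalizer hUN
        haveI : ((Subgroup.zpowers x).subgroupOf T).Normal :=
          Subgroup.normal_subgroupOf_of_le_normalizer hTN
        have hsubne : (Subgroup.zpowers x).subgroupOf T ≠ ⊥ := by
          intro hbot
          have hmem : (⟨x, hXT (Subgroup.mem_zpowers x)⟩ : ↥T) ∈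
              (Subgroup.zpowers x).subgroupOf T :=
            Subgroup.mem_subgroupOf.mpr (Subgroup.mem_zpowers x)
          rw [hbot, Subgroup.mem_bot] at hmem
          exact hx1 (congrArg (fun w : ↥T => (w : E)) hmem)
        obtain ⟨z, hzX, hz1, hzc⟩ := Helper4.exists_ne_one_mem_center_of_normal hTp
          ((Subgroup.zpowers x).subgroupOf T) hsubne
        have hz1' : (z : E) ≠ 1 := fun h => hz1 (Subtype.ext h)
        have hxz : x ∈ Subgroup.zpowers (z : E) :=
          mem_zpowers_of_prime_order hq hxo (Subgroup.mem_subgroupOf.mp hzX) hz1'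
        obtain ⟨i, hi⟩ := Subgroup.mem_zpowers_iff.mp hxz
        have huz : u * (z : E) = (z : E) * u :=
          congrArg (fun w : ↥T => (w : E)) (Subgroup.mem_center_iff.mp hzc ⟨u, huT⟩)
        rw [← hi]
        have hc : Commute u (z : E) := huz
        exact (hc.zpow_right i).eq
      · by_cases hu1 : u = 1
        · rw [hu1, one_mul, mul_one]
        · obtain ⟨s', k', hs', hk'⟩ := hpp u hu1
          have hs's : s' = s := by
            have hd : s' ∣ s ^ b := by
              rw [← hb, ← hk']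
              exact orderOf_pow_dvd k'
            exact (Nat.prime_dvd_prime_iff_eq hs' hs).mp (hs'.dvd_of_dvd_pow hd)
          rw [hs's] at hk'
          have hu'N : u ^ k' ∈ Subgroup.normalizer (Subgroup.zpowers x : Set E) :=
            Subgroup.pow_mem _ huN k'
          have hconj : u ^ k' * x * (u ^ k')⁻¹ ∈ Subgroup.zpowers x :=
            (Subgroup.mem_normalizer_iff.mp hu'N x).mp (Subgroup.mem_zpowers x)
          have hcomm := h2 q s x (u ^ k') hq hs (Ne.symm hsq) hxo hk' hconj
          have hu'1 := hne1 (u ^ k') s hs hk'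
          have hxC : x ∈ Subgroup.centralizer ({u ^ k'} : Set E) :=
            (Helper5.mem_centralizer_singleton_iff _ _).mpr hcomm.symm
          have huC : u ∈ Subgroup.centralizer ({u ^ k'} : Set E) := by
            rw [Helper5.mem_centralizer_singleton_iff]
            exact ((Commute.refl u).pow_right k').eq
          exact commute_in_nilpotent _ (hCN (u ^ k') hu'1) hs hq hsq huC hxC (j := 1) hb
            (by rw [hxo, pow_one])
    exact (Helper5.mem_centralizer_singleton_iff x g).mp hmem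
  -- Step 2: commuting elements of prime order have comparable centralizers
  have hP2 : ∀ (q s : ℕ) (x y : E), q.Prime → s.Prime → orderOf x = q → orderOf y = s →
      x * y = y * x →
      Subgroup.centralizer ({y} : Set E) ≤ Subgroup.centralizer ({x} : Set E) := by
    intro q s x y hq hs hxo hyo hxy u₀ hu₀
    have hy1 := hne1 y s hs hyo
    have hxCy : x ∈ Subgroup.centralizer ({y} : Set E) :=
      (Helper5.mem_centralizer_singleton_iff y x).mpr hxy
    apply mem_of_prime_pow_powers
    rintro k ⟨r, hr, b, hb⟩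
    have huCy : u₀ ^ k ∈ Subgroup.centralizer ({y} : Set E) := Subgroup.zpow_mem _ hu₀ k
    rw [Helper5.mem_centralizer_singleton_iff]
    by_cases hrq : r = q
    · haveI : Fact q.Prime := ⟨hq⟩
      obtain ⟨P', hP'le, hP'p, hP'all⟩ :=
        exists_sylow_of_nilpotent (Subgroup.centralizer ({y} : Set E)) (hCN y hy1) q
      have hxP' : x ∈ P' := hP'all x hxCy 1 (by rw [hxo, pow_one])
      have huP' : u₀ ^ k ∈ P' := hP'all _ huCy b (by rw [hb, hrq])
      have hP'nil : Group.IsNilpotent ↥P' := hP'p.isNilpotent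
      have hqP' : q ∣ Nat.card P' := by
        rw [← hxo]
        exact Subgroup.orderOf_dvd_natCard P' hxP'
      obtain ⟨w, hwP', hwo, hwc⟩ := exists_central_of_order P' hP'nil q hqP'
      have hwx : w ∈ Subgroup.zpowers x := h1 q x w hq hxo hwo (hwc x hxP')
      have hxw : x ∈ Subgroup.zpowers w :=
        mem_zpowers_of_prime_order hq hxo hwx (hne1 w q hq hwo)
      obtain ⟨i, hi⟩ := Subgroup.mem_zpowers_iff.mp hxw
      rw [← hi]
      have hc : Commute (u₀ ^ k) w := hwc _ huP'
      exact (hc.zpow_right i).eq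
    · exact commute_in_nilpotent _ (hCN y hy1) hr hq hrq huCy hxCy (j := 1) hb
        (by rw [hxo, pow_one])
  -- Step 3: strong TI property of centralizers of elements of prime order
  have hP4 : ∀ (q : ℕ) (x : E), q.Prime → orderOf x = q → ∀ g : E,
      g ∉ Subgroup.centralizer ({x} : Set E) → ∀ y ∈ Subgroup.centralizer ({x} : Set E),
      g * y * g⁻¹ ∈ Subgroup.centralizer ({x} : Set E) → y = 1 := by
    intro q x hq hxo g hg y hy hgy
    by_contra hy1
    obtain ⟨s, k, hs, hk⟩ := hpp y hy1
    have hy' : y ^ k ∈ Subgroup.centralizer ({x} : Set E) := Subgroup.pow_mem _ hy k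
    have hgy' : g * y ^ k * g⁻¹ ∈ Subgroup.centralizer ({x} : Set E) := by
      rw [← conj_pow]
      exact Subgroup.pow_mem _ hgy k
    have hgo : orderOf (g * y ^ k * g⁻¹) = s := by rw [orderOf_conj_mul]; exact hk
    rw [Helper5.mem_centralizer_singleton_iff] at hy' hgy'
    have e1 : Subgroup.centralizer ({y ^ k} : Set E) = Subgroup.centralizer ({x} : Set E) :=
      le_antisymm (hP2 q s x (y ^ k) hq hs hxo hk hy'.symm) (hP2 s q (y ^ k) x hs hq hk hxo hy')
    have e2 : Subgroup.centralizer ({g * y ^ k * g⁻¹} : Set E) =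
        Subgroup.centralizer ({x} : Set E) :=
      le_antisymm (hP2 q s x _ hq hs hxo hgo hgy'.symm) (hP2 s q _ x hs hq hgo hxo hgy')
    have e3 : (Subgroup.centralizer ({x} : Set E)).map (MulAut.conj g).toMonoidHom =
        Subgroup.centralizer ({x} : Set E) := by
      calc (Subgroup.centralizer ({x} : Set E)).map (MulAut.conj g).toMonoidHom
          = (Subgroup.centralizer ({y ^ k} : Set E)).map (MulAut.conj g).toMonoidHom := by
            rw [e1]
        _ = Subgroup.centralizer ({g * y ^ k * g⁻¹} : Set E) :=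
            centralizer_singleton_map_conj (y ^ k) g
        _ = Subgroup.centralizer ({x} : Set E) := e2
    have hxM : x ∈ Subgroup.centralizer ({x} : Set E) := by
      rw [Helper5.mem_centralizer_singleton_iff]
    have hgx : g * x * g⁻¹ ∈ Subgroup.centralizer ({x} : Set E) := by
      rw [← e3]
      exact Helper5.conj_mem_conj _ g x hxM
    rw [Helper5.mem_centralizer_singleton_iff] at hgx
    have hgxo : orderOf (g * x * g⁻¹) = q := by rw [orderOf_conj_mul]; exact hxo
    have hgz : g * x * g⁻¹ ∈ Subgroup.zpowers x := h1 q x _ hq hxo hgxo hgx.symm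
    apply hg
    rw [Helper5.mem_centralizer_singleton_iff]
    exact hNC q x g hq hxo hgz
  -- Step 4: counting
  have hnt : Nontrivial E := by
    by_contra hsub
    rw [not_nontrivial_iff_subsingleton] at hsub
    exact hnn inferInstance
  obtain ⟨q, hq, hqE⟩ :=
    Nat.exists_prime_and_dvd (Finite.one_lt_card_iff_nontrivial.mpr hnt).ne'
  haveI : Fact q.Prime := ⟨hq⟩
  obtain ⟨x, hxo⟩ := exists_prime_orderOf_dvd_card' q hqE
  have hx1 := hne1 x q hq hxo
  obtain ⟨M, hM⟩ : ∃ M : Subgroup E, M = Subgroup.centralizer ({x} : Set E) := ⟨_, rfl⟩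
  have hMtop : M ≠ ⊤ := by
    intro htop
    apply hnn
    have hnil := hCN x hx1
    rw [← hM, htop] at hnil
    haveI := hnil
    exact Group.nilpotent_of_mulEquiv (Subgroup.topEquiv (G := E))
  have hxM : x ∈ M := by rw [hM, Helper5.mem_centralizer_singleton_iff]
  have hMbot : M ≠ ⊥ := by
    intro h
    rw [h, Subgroup.mem_bot] at hxM
    exact hx1 hxM
  obtain ⟨y₀, hy₀⟩ := Helper7.exists_forall_conj_notMem M hMtop
  have hy₀1 : y₀ ≠ 1 := by
    intro h
    apply hy₀ 1
    rw [h, inv_one, one_mul, one_mul]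
    exact M.one_mem
  obtain ⟨s, k, hs, hk⟩ := hpp y₀ hy₀1
  obtain ⟨y, hy⟩ : ∃ y : E, y = y₀ ^ k := ⟨_, rfl⟩
  rw [← hy] at hk
  have hy1 := hne1 y s hs hk
  obtain ⟨M', hM'⟩ : ∃ M' : Subgroup E, M' = Subgroup.centralizer ({y} : Set E) := ⟨_, rfl⟩
  have hyM' : y ∈ M' := by rw [hM', Helper5.mem_centralizer_singleton_iff]
  have hM'bot : M' ≠ ⊥ := by
    intro h
    rw [h, Subgroup.mem_bot] at hyM'
    exact hy1 hyM'
  have hy₀M' : y₀ ∈ M' := by
    rw [hM', Helper5.mem_centralizer_singleton_iff, hy]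
    exact ((Commute.refl y₀).pow_right k).eq
  have c1 := Helper7.card_le_two_mul_card_conj_of_TI M hMbot (by rw [hM]; exact hP4 q x hq hxo)
  have c2 := Helper7.card_le_two_mul_card_conj_of_TI M' hM'bot
    (by rw [hM']; exact hP4 s y hs hk)
  have hdisj : ∀ u : E, u ≠ 1 → (∃ g : E, g⁻¹ * u * g ∈ M) → (∃ h : E, h⁻¹ * u * h ∈ M') →
      False := by
    rintro u hu1 ⟨g, hg⟩ ⟨h, hh⟩
    obtain ⟨r, j, hr, hj⟩ := hpp u hu1
    have ha : g⁻¹ * u ^ j * g ∈ M := by
      have e : g⁻¹ * u ^ j * g = (g⁻¹ * u * g) ^ j := by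
        have h0 := conj_pow (a := g⁻¹) (b := u) (i := j)
        rw [inv_inv] at h0
        exact h0.symm
      rw [e]
      exact M.pow_mem hg j
    have hb : h⁻¹ * u ^ j * h ∈ M' := by
      have e : h⁻¹ * u ^ j * h = (h⁻¹ * u * h) ^ j := by
        have h0 := conj_pow (a := h⁻¹) (b := u) (i := j)
        rw [inv_inv] at h0
        exact h0.symm
      rw [e]
      exact M'.pow_mem hh j
    have hao : orderOf (g⁻¹ * u ^ j * g) = r := by rw [orderOf_conj_inv_mul]; exact hj
    have hbo : orderOf (h⁻¹ * u ^ j * h) = r := by rw [orderOf_conj_inv_mul]; exact hj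
    rw [hM, Helper5.mem_centralizer_singleton_iff] at ha
    rw [hM', Helper5.mem_centralizer_singleton_iff] at hb
    have ea : Subgroup.centralizer ({g⁻¹ * u ^ j * g} : Set E) ≤
        Subgroup.centralizer ({x} : Set E) := hP2 q r x _ hq hr hxo hao ha.symm
    have eb : Subgroup.centralizer ({y} : Set E) ≤
        Subgroup.centralizer ({h⁻¹ * u ^ j * h} : Set E) := hP2 r s _ y hr hs hbo hk hb
    have h1' : y₀ ∈ Subgroup.centralizer ({h⁻¹ * u ^ j * h} : Set E) :=
      eb (by rw [← hM']; exact hy₀M')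
    rw [Helper5.mem_centralizer_singleton_iff] at h1'
    apply hy₀ (h⁻¹ * g)
    rw [hM]
    apply ea
    rw [Helper5.mem_centralizer_singleton_iff]
    calc (h⁻¹ * g)⁻¹ * y₀ * (h⁻¹ * g) * (g⁻¹ * u ^ j * g)
        = g⁻¹ * h * (y₀ * (h⁻¹ * u ^ j * h)) * h⁻¹ * g := by group
      _ = g⁻¹ * h * ((h⁻¹ * u ^ j * h) * y₀) * h⁻¹ * g := by rw [h1']
      _ = (g⁻¹ * u ^ j * g) * ((h⁻¹ * g)⁻¹ * y₀ * (h⁻¹ * g)) := by group
  obtain ⟨A, hA⟩ : ∃ A : Set E, A = {u : E | u ≠ 1 ∧ ∃ g : E, g⁻¹ * u * g ∈ M} := ⟨_, rfl⟩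
  obtain ⟨B, hB⟩ : ∃ B : Set E, B = {u : E | u ≠ 1 ∧ ∃ g : E, g⁻¹ * u * g ∈ M'} := ⟨_, rfl⟩
  have cA : Nat.card {u : E // u ≠ 1 ∧ ∃ g : E, g⁻¹ * u * g ∈ M} = A.ncard := by
    rw [hA]
    rfl
  have cB : Nat.card {u : E // u ≠ 1 ∧ ∃ g : E, g⁻¹ * u * g ∈ M'} = B.ncard := by
    rw [hB]
    rfl
  have hAB : Disjoint A B := by
    rw [Set.disjoint_left]
    intro u huA huB
    rw [hA] at huA
    rw [hB] at huB
    exact hdisj u huA.1 huA.2 huB.2
  have h1A : (1 : E) ∉ A ∪ B := by
    rw [hA, hB]
    rintro (h | h)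
    · exact h.1 rfl
    · exact h.1 rfl
  have hcount : A.ncard + B.ncard + 1 ≤ Nat.card E := by
    rw [← Set.ncard_union_eq hAB, ← Set.ncard_insert_of_notMem h1A]
    exact Set.ncard_le_card _
  rw [cA] at c1
  rw [cB] at c2
  omega

/-! ### The largest normal nilpotent Hall subgroup -/

theorem fittingHall_le_fitting (G : Type*) [Group G] :
    Cfsg.fittingHall G ≤ Cfsg.fittingSubgroup G := by
  apply sSup_le_sSup
  rintro N ⟨hN1, hN2, -⟩
  exact ⟨hN1, hN2⟩

theorem fittingHall_spec (G : Type*) [Group G] [Finite G] :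
    Group.IsNilpotent (Cfsg.fittingHall G) ∧
      (Nat.card (Cfsg.fittingHall G)).Coprime (Cfsg.fittingHall G).index :=
  sSup_normal_induction (G := G)
    (fun N => Group.IsNilpotent N ∧ (Nat.card N).Coprime N.index)
    ⟨inferInstance, by simp⟩
    (fun A B hA hB hQA hQB => by
      haveI := hA
      haveI := hB
      haveI := fitting_nilpotent G
      refine ⟨nilpotent_of_le (sup_le (le_fitting A hQA.1) (le_fitting B hQB.1)), ?_⟩
      apply Nat.coprime_of_dvd
      intro r hr hrc hri
      have hdvd : r ∣ Nat.card A * Nat.card B :=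
        hrc.trans (card_sup_dvd_mul_of_le_normalizer A B
          (by rw [Subgroup.normalizer_eq_top (H := A)]; exact le_top))
      rcases (Nat.Prime.dvd_mul hr).mp hdvd with h | h
      · have h3 : r ∣ A.index := hri.trans (Subgroup.index_dvd_of_le le_sup_left)
        exact hr.one_lt.ne' (Nat.eq_one_of_dvd_coprimes hQA.2 h h3)
      · have h3 : r ∣ B.index := hri.trans (Subgroup.index_dvd_of_le le_sup_right)
        exact hr.one_lt.ne' (Nat.eq_one_of_dvd_coprimes hQB.2 h h3))

theorem normal_sylow_le_fittingHall {G : Type*} [Group G] [Finite G] {q : ℕ} [Fact q.Prime]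
    (Q : Sylow q G) (hQ : (Q : Subgroup G).Normal) : (Q : Subgroup G) ≤ Cfsg.fittingHall G :=
  le_sSup ⟨hQ, Q.2.isNilpotent, Q.card_coprime_index⟩

end Cfsg.Agent.Helper3
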