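import Cfsg.Agent.Helper3.CNFrob

/-! CN-groups with a nontrivial normal nilpotent Hall subgroup containing all normal Sylow
subgroups: Frobenius structure with nilpotent complement. -/

set_option autoImplicit false

open scoped Pointwise

universe u

namespace Cfsg.Agent.Helper3

theorem cn_frobenius_structure {G : Type u} [Group G] [Finite G] (hCN : Cfsg.IsCNGroup G)
    (hnn : ¬ Group.IsNilpotent G) (H : Subgroup G) [hHn : H.Normal]
    (hHnil : Group.IsNilpotent H) (hHcop : (Nat.card H).Coprime H.index) (hHbot : H ≠ ⊥)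
    (hmax : ∀ (q : ℕ) [Fact q.Prime] (Q : Sylow q G), (Q : Subgroup G).Normal →
      (Q : Subgroup G) ≤ H) :
    H ≠ ⊥ ∧ H ≠ ⊤ ∧
      (∃ E : Subgroup G, Subgroup.IsComplement' H E ∧ Cfsg.IsFrobeniusComplement E ∧
        ∀ e ∈ E, e ≠ 1 → H ⊓ Subgroup.centralizer ({e} : Set G) = ⊥) ∧
      Group.IsNilpotent (G ⧸ H) := by
  classical
  have hne1 : ∀ (z : G) (p : ℕ), p.Prime → orderOf z = p → z ≠ 1 := by
    intro z p hp hz h
    rw [h, orderOf_one] at hz
    exact hp.one_lt.ne hz
  have hpp : ∀ u : G, u ≠ 1 → ∃ (s : ℕ) (k : ℕ), s.Prime ∧ orderOf (u ^ k) = s := by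
    intro u hu
    have hox : orderOf u ≠ 1 := fun h => hu (orderOf_eq_one_iff.mp h)
    obtain ⟨s, hs, hsx⟩ := Nat.exists_prime_and_dvd hox
    exact ⟨s, orderOf u / s, hs, orderOf_pow_orderOf_div (orderOf_pos u).ne' hsx⟩
  have hHtop : H ≠ ⊤ := by
    intro htop
    apply hnn
    have hnil := hHnil
    rw [htop] at hnil
    haveI := hnil
    exact Group.nilpotent_of_mulEquiv (Subgroup.topEquiv (G := G))
  obtain ⟨E, hE⟩ := Subgroup.exists_right_complement'_of_coprime hHcop
  have hinf : H ⊓ E = ⊥ := hE.disjoint.eq_bot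
  have hsup : H ⊔ E = ⊤ := hE.sup_eq_top
  have hidx : H.index = Nat.card E := hE.symm.index_eq_card
  have hEN : E ≤ Subgroup.normalizer (H : Set G) := by
    rw [Subgroup.normalizer_eq_top (H := H)]
    exact le_top
  have hEbot : E ≠ ⊥ := by
    intro h
    rw [h, sup_bot_eq] at hsup
    exact hHtop hsup
  have hEtop : E ≠ ⊤ := by
    intro h
    rw [h, inf_top_eq] at hinf
    exact hHbot hinf
  -- primes of elements of E do not divide |H|
  have hEH : ∀ (q : ℕ), q.Prime → ∀ e ∈ E, orderOf e = q → ¬ q ∣ Nat.card H := by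
    intro q hq e heE heo hdvd
    have hqE : q ∣ Nat.card E := by
      rw [← heo]
      exact Subgroup.orderOf_dvd_natCard E heE
    have h1 := Nat.eq_one_of_dvd_coprimes hHcop hdvd (by rw [hidx]; exact hqE)
    exact hq.one_lt.ne' h1
  -- the Frobenius action
  have hfrob : ∀ e ∈ E, e ≠ 1 → ∀ h ∈ H, h * e = e * h → h = 1 := by
    intro e₀ he₀E he₀1 h₀ hh₀H hcomm₀
    by_contra hh₀1
    obtain ⟨q, ke, hq, hke⟩ := hpp e₀ he₀1
    obtain ⟨r, kh, hr, hkh⟩ := hpp h₀ hh₀1
    obtain ⟨e, he⟩ : ∃ e : G, e = e₀ ^ ke := ⟨_, rfl⟩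
    obtain ⟨h, hh⟩ : ∃ h : G, h = h₀ ^ kh := ⟨_, rfl⟩
    rw [← he] at hke
    rw [← hh] at hkh
    have heE : e ∈ E := by rw [he]; exact E.pow_mem he₀E _
    have hhH : h ∈ H := by rw [hh]; exact H.pow_mem hh₀H _
    have hhe : h * e = e * h := by
      rw [he, hh]
      have hc : Commute h₀ e₀ := hcomm₀
      exact ((hc.pow_left kh).pow_right ke).eq
    have he1 := hne1 e q hq hke
    have hh1 := hne1 h r hr hkh
    haveI : Fact q.Prime := ⟨hq⟩
    haveI : Fact r.Prime := ⟨hr⟩
    have hrH : r ∣ Nat.card H := by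
      rw [← hkh]
      exact Subgroup.orderOf_dvd_natCard H hhH
    have hqH : ¬ q ∣ Nat.card H := hEH q hq e heE hke
    have hrq : r ≠ q := fun h' => hqH (h' ▸ hrH)
    obtain ⟨R, hRH, hRp, hRall⟩ := exists_sylow_of_nilpotent H hHnil r
    have hRn : R.Normal := by
      constructor
      intro n hn g
      obtain ⟨b, hb⟩ := (IsPGroup.iff_orderOf).mp hRp ⟨n, hn⟩
      rw [Subgroup.orderOf_mk] at hb
      exact hRall _ (hHn.conj_mem n (hRH hn) g) b (by rw [orderOf_conj_mul]; exact hb)
    have hhR : h ∈ R := hRall h hhH 1 (by rw [hkh, pow_one])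
    have heq : IsPGroup q (Subgroup.zpowers e) :=
      IsPGroup.of_card (n := 1) (by rw [Nat.card_zpowers, hke, pow_one])
    obtain ⟨Q, hQ⟩ := heq.exists_le_sylow
    have heQ : e ∈ (Q : Subgroup G) := hQ (Subgroup.mem_zpowers e)
    have hQnil : Group.IsNilpotent ↥(Q : Subgroup G) := Q.2.isNilpotent
    have hqQ : q ∣ Nat.card (Q : Subgroup G) := by
      have h0 := Subgroup.orderOf_dvd_natCard (Q : Subgroup G) heQ
      rw [hke] at h0
      exact h0
    obtain ⟨z, hzQ, hzo, hzc⟩ := exists_central_of_order (Q : Subgroup G) hQnil q hqQ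
    have hz1 := hne1 z q hq hzo
    have hzh : z * h = h * z := by
      have hzC : z ∈ Subgroup.centralizer ({e} : Set G) :=
        (Helper5.mem_centralizer_singleton_iff e z).mpr (hzc e heQ).symm
      have hhC : h ∈ Subgroup.centralizer ({e} : Set G) :=
        (Helper5.mem_centralizer_singleton_iff e h).mpr hhe
      exact commute_in_nilpotent _ (hCN e he1) hq hr (Ne.symm hrq) hzC hhC (i := 1) (j := 1)
        (by rw [hzo, pow_one]) (by rw [hkh, pow_one])
    have hQh : ∀ y ∈ (Q : Subgroup G), y * h = h * y := by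
      intro y hy
      obtain ⟨b, hb⟩ := (IsPGroup.iff_orderOf).mp Q.2 ⟨y, hy⟩
      rw [Subgroup.orderOf_mk] at hb
      have hyC : y ∈ Subgroup.centralizer ({z} : Set G) :=
        (Helper5.mem_centralizer_singleton_iff z y).mpr (hzc y hy)
      have hhC : h ∈ Subgroup.centralizer ({z} : Set G) :=
        (Helper5.mem_centralizer_singleton_iff z h).mpr hzh.symm
      exact commute_in_nilpotent _ (hCN z hz1) hq hr (Ne.symm hrq) hyC hhC (j := 1) hb
        (by rw [hkh, pow_one])
    have hRnil : Group.IsNilpotent ↥R := hRp.isNilpotent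
    have hrR : r ∣ Nat.card R := by
      rw [← hkh]
      exact Subgroup.orderOf_dvd_natCard R hhR
    obtain ⟨zR, hzRR, hzRo, hzRc⟩ := exists_central_of_order R hRnil r hrR
    have hzR1 := hne1 zR r hr hzRo
    have hQzR : ∀ y ∈ (Q : Subgroup G), y * zR = zR * y := by
      intro y hy
      obtain ⟨b, hb⟩ := (IsPGroup.iff_orderOf).mp Q.2 ⟨y, hy⟩
      rw [Subgroup.orderOf_mk] at hb
      have hyC : y ∈ Subgroup.centralizer ({h} : Set G) :=
        (Helper5.mem_centralizer_singleton_iff h y).mpr (hQh y hy)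
      have hzC : zR ∈ Subgroup.centralizer ({h} : Set G) :=
        (Helper5.mem_centralizer_singleton_iff h zR).mpr (hzRc h hhR).symm
      exact commute_in_nilpotent _ (hCN h hh1) hq hr (Ne.symm hrq) hyC hzC (j := 1) hb
        (by rw [hzRo, pow_one])
    have hQR : (Q : Subgroup G) ≤ Subgroup.centralizer (R : Set G) := by
      intro y hy
      rw [Subgroup.mem_centralizer_iff]
      intro t ht
      obtain ⟨b, hb⟩ := (IsPGroup.iff_orderOf).mp Q.2 ⟨y, hy⟩
      rw [Subgroup.orderOf_mk] at hb
      obtain ⟨c, hc⟩ := (IsPGroup.iff_orderOf).mp hRp ⟨t, ht⟩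
      rw [Subgroup.orderOf_mk] at hc
      have hyC : y ∈ Subgroup.centralizer ({zR} : Set G) :=
        (Helper5.mem_centralizer_singleton_iff zR y).mpr (hQzR y hy)
      have htC : t ∈ Subgroup.centralizer ({zR} : Set G) :=
        (Helper5.mem_centralizer_singleton_iff zR t).mpr (hzRc t ht)
      exact (commute_in_nilpotent _ (hCN zR hzR1) hq hr (Ne.symm hrq) hyC htC hb hc).symm
    haveI := hRn
    have hCRn : (Subgroup.centralizer (R : Set G)).Normal := Subgroup.normal_centralizer
    have hCRnil : Group.IsNilpotent ↥(Subgroup.centralizer (R : Set G)) := by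
      haveI := hCN zR hzR1
      refine nilpotent_of_le (B := Subgroup.centralizer ({zR} : Set G)) ?_
      exact Subgroup.centralizer_le (Set.singleton_subset_iff.mpr hzRR)
    obtain ⟨P'', hP''le, hP''p, hP''all⟩ :=
      exists_sylow_of_nilpotent (Subgroup.centralizer (R : Set G)) hCRnil q
    have hQP'' : (Q : Subgroup G) ≤ P'' := by
      intro y hy
      obtain ⟨b, hb⟩ := (IsPGroup.iff_orderOf).mp Q.2 ⟨y, hy⟩
      rw [Subgroup.orderOf_mk] at hb
      exact hP''all y (hQR hy) b hb
    have hP''Q : P'' = (Q : Subgroup G) := Q.is_maximal' hP''p hQP''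
    have hQn : (Q : Subgroup G).Normal := by
      constructor
      intro n hn g
      obtain ⟨b, hb⟩ := (IsPGroup.iff_orderOf).mp Q.2 ⟨n, hn⟩
      rw [Subgroup.orderOf_mk] at hb
      rw [← hP''Q]
      exact hP''all _ (hCRn.conj_mem n (hQR hn) g) b (by rw [orderOf_conj_mul]; exact hb)
    have hQH : (Q : Subgroup G) ≤ H := hmax q Q hQn
    have hmem : e ∈ H ⊓ E := Subgroup.mem_inf.mpr ⟨hQH heQ, heE⟩
    rw [hinf, Subgroup.mem_bot] at hmem
    exact he1 hmem
  -- E is a Frobenius complement
  have hFC : Cfsg.IsFrobeniusComplement E := by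
    refine ⟨hEbot, hEtop, ?_⟩
    intro g hgE
    rw [eq_bot_iff]
    intro y hy
    obtain ⟨hyE, hyg⟩ := Subgroup.mem_inf.mp hy
    rw [Helper7.mem_conj_smul_iff] at hyg
    rw [Subgroup.mem_bot]
    by_contra hy1
    obtain ⟨h, hhH, e₀, he₀, hge⟩ := mem_sup_of_le_normalizer_right H E hEN
      (show g ∈ H ⊔ E by rw [hsup]; exact Subgroup.mem_top g)
    have hh1 : h ≠ 1 := by
      intro h1
      apply hgE
      rw [← hge, h1, one_mul]
      exact he₀
    have he' : h⁻¹ * y * h ∈ E := by
      have e : h⁻¹ * y * h = e₀ * (g⁻¹ * y * g) * e₀⁻¹ := by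
        rw [← hge]
        group
      rw [e]
      exact E.mul_mem (E.mul_mem he₀ hyg) (E.inv_mem he₀)
    have hmemH : y⁻¹ * (h⁻¹ * y * h) ∈ H := by
      have e : y⁻¹ * (h⁻¹ * y * h) = (y⁻¹ * h⁻¹ * y⁻¹⁻¹) * h := by group
      rw [e]
      exact H.mul_mem (hHn.conj_mem _ (H.inv_mem hhH) _) hhH
    have hmemE : y⁻¹ * (h⁻¹ * y * h) ∈ E := E.mul_mem (E.inv_mem hyE) he'
    have h1 : y⁻¹ * (h⁻¹ * y * h) ∈ H ⊓ E := Subgroup.mem_inf.mpr ⟨hmemH, hmemE⟩
    rw [hinf, Subgroup.mem_bot] at h1
    have e : y * h = h * y * (y⁻¹ * (h⁻¹ * y * h)) := by group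
    rw [h1, mul_one] at e
    exact hh1 (hfrob y hyE hy1 h hhH e.symm)
  -- E is nilpotent
  have hEnil : Group.IsNilpotent ↥E := by
    haveI := hHnil
    obtain ⟨p', hp', V, hVn, hVH, hVne, hVp, hVab⟩ :=
      exists_normal_abelian_pgroup_le H inferInstance hHbot
    haveI := hVn
    letI : CommGroup ↥V :=
      { (inferInstance : Group ↥V) with
        mul_comm := fun a b => Subtype.ext (hVab a a.2 b b.2) }
    have hfix : ∀ e ∈ E, e ≠ 1 → ∀ w : ↥V, (MulAut.conjNormal e : MulAut ↥V) w = w → w = 1 := by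
      intro e heE he1 w hw
      have h0 := congrArg Subtype.val hw
      rw [MulAut.conjNormal_apply] at h0
      have hc : e * (w : G) = (w : G) * e := mul_inv_eq_iff_eq_mul.mp h0
      exact Subtype.ext (hfrob e heE he1 (w : G) (hVH w.2) hc.symm)
    apply nilpotent_of_cn_of_frob (isCNGroup_subgroup hCN E)
    · -- commuting elements of order q
      intro q x w hq hxo hwo hxw
      by_contra hwx
      haveI : Fact q.Prime := ⟨hq⟩
      have hxo' : orderOf (x : G) = q := by rw [Subgroup.orderOf_coe]; exact hxo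
      have hwo' : orderOf (w : G) = q := by rw [Subgroup.orderOf_coe]; exact hwo
      have hxw' : (x : G) * (w : G) = (w : G) * (x : G) := congrArg Subtype.val hxw
      have hwx' : (w : G) ∉ Subgroup.zpowers (x : G) := by
        intro hmem
        obtain ⟨i, hi⟩ := Subgroup.mem_zpowers_iff.mp hmem
        apply hwx
        rw [Subgroup.mem_zpowers_iff]
        refine ⟨i, Subtype.ext ?_⟩
        rw [Subgroup.coe_zpow]
        exact hi
      have hqH : ¬ q ∣ Nat.card H := hEH q hq (x : G) x.2 hxo'
      obtain ⟨A, hA⟩ : ∃ A : Subgroup G, A = Subgroup.closure {(x : G), (w : G)} := ⟨_, rfl⟩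
      have hgen : ∀ a ∈ ({(x : G), (w : G)} : Set G), ∀ b ∈ ({(x : G), (w : G)} : Set G),
          a * b = b * a := by
        intro a ha b hb
        rcases ha with rfl | rfl <;> rcases hb with rfl | rfl
        · rfl
        · exact hxw'
        · exact hxw'.symm
        · rfl
      have hAcomm : IsMulCommutative ↥A := by
        rw [hA]
        exact Subgroup.isMulCommutative_closure hgen
      have hAexp : ∀ a ∈ A, a ^ q = 1 := by
        intro a ha
        rw [hA] at ha
        induction ha using Subgroup.closure_induction with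
        | mem a ha =>
          rcases ha with rfl | rfl
          · rw [← hxo']
            exact pow_orderOf_eq_one _
          · rw [← hwo']
            exact pow_orderOf_eq_one _
        | one => exact one_pow q
        | mul a b ha hb iha ihb =>
          have hc : Commute a b :=
            Helper5.comm_of_isMulCommutative hAcomm a (by rw [hA]; exact ha) b
              (by rw [hA]; exact hb)
          rw [hc.mul_pow, iha, ihb, one_mul]
        | inv a ha iha => rw [inv_pow, iha, inv_one]
      have hAE : A ≤ E := by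
        rw [hA, Subgroup.closure_le]
        intro a ha
        rcases ha with rfl | rfl
        · exact x.2
        · exact w.2
      have hxA : (x : G) ∈ A := by
        rw [hA]
        exact Subgroup.subset_closure (Set.mem_insert _ _)
      have hwA : (w : G) ∈ A := by
        rw [hA]
        exact Subgroup.subset_closure (Set.mem_insert_of_mem _ rfl)
      have hAN : A ≤ Subgroup.normalizer (H : Set G) := by
        rw [Subgroup.normalizer_eq_top (H := H)]
        exact le_top
      have hgenH := generated_by_centralizers q A H ⟨hAcomm, hAexp⟩ hqH hAN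
      apply hHbot
      rw [hgenH]
      apply iSup_eq_bot.mpr
      rintro ⟨B, hBA, hBidx⟩
      have hBne : B ≠ ⊥ := by
        intro hB
        rw [hB, Subgroup.relIndex_bot_left] at hBidx
        have hXA : Subgroup.zpowers (x : G) ≤ A := (Subgroup.zpowers_le).mpr hxA
        have hcard : Nat.card (Subgroup.zpowers (x : G)) = q := by rw [Nat.card_zpowers, hxo']
        have heq : Subgroup.zpowers (x : G) = A :=
          Subgroup.eq_of_le_of_card_ge hXA (by rw [hcard]; exact hBidx)
        apply hwx'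
        rw [heq]
        exact hwA
      obtain ⟨⟨b, hbB⟩, hb1⟩ := (Subgroup.ne_bot_iff_exists_ne_one).mp hBne
      have hb1' : b ≠ 1 := fun h => hb1 (Subtype.ext h)
      rw [eq_bot_iff]
      intro h hh
      obtain ⟨hhH, hhC⟩ := Subgroup.mem_inf.mp hh
      rw [Subgroup.mem_bot]
      have hcomm : b * h = h * b := Subgroup.mem_centralizer_iff.mp hhC b hbB
      exact hfrob b (hAE (hBA hbB)) hb1' h hhH hcomm.symm
    · -- elements of prime order normalizing a subgroup of another prime order
      intro q s x g hq hs hqs hxo hgo hconj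
      by_contra hgx
      have hxo' : orderOf (x : G) = q := by rw [Subgroup.orderOf_coe]; exact hxo
      have hgo' : orderOf (g : G) = s := by rw [Subgroup.orderOf_coe]; exact hgo
      have hx1 : (x : G) ≠ 1 := hne1 _ q hq hxo'
      have hg1 : (g : G) ≠ 1 := hne1 _ s hs hgo'
      have hconj' : (g : G) * (x : G) * (g : G)⁻¹ ∈ Subgroup.zpowers (x : G) := by
        obtain ⟨i, hi⟩ := Subgroup.mem_zpowers_iff.mp hconj
        rw [Subgroup.mem_zpowers_iff]
        refine ⟨i, ?_⟩
        have h0 := congrArg Subtype.val hi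
        rw [Subgroup.coe_zpow] at h0
        exact h0
      have hgx' : ¬ ((g : G) * (x : G) = (x : G) * (g : G)) := by
        intro h
        exact hgx (Subtype.ext h)
      have hqH : ¬ q ∣ Nat.card H := hEH q hq (x : G) x.2 hxo'
      have hYR : Subgroup.zpowers (g : G) ≤
          Subgroup.normalizer (Subgroup.zpowers (x : G) : Set G) := by
        rw [Subgroup.zpowers_le]
        apply Helper5.mem_normalizer_of_conj_le
        rw [MonoidHom.map_zpowers]
        exact (Subgroup.zpowers_le).mpr hconj'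
      have hkey := frobenius_norm_arg (MulAut.conjNormal : G →* MulAut ↥V)
        (Subgroup.zpowers (x : G)) (Subgroup.zpowers (g : G))
        ⟨(x : G), Subgroup.mem_zpowers _, hx1, hfix (x : G) x.2 hx1⟩
        ⟨(g : G), Subgroup.mem_zpowers _, hg1, hfix (g : G) g.2 hg1⟩
        hYR
        (by
          intro u hu c hc hc1 huc
          by_contra hu1
          have hxu := mem_zpowers_of_prime_order hq hxo' hu hu1
          have hgc := mem_zpowers_of_prime_order hs hgo' hc hc1
          obtain ⟨i, hi⟩ := Subgroup.mem_zpowers_iff.mp hxu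
          obtain ⟨j, hj⟩ := Subgroup.mem_zpowers_iff.mp hgc
          apply hgx'
          rw [← hi, ← hj]
          have hcc : Commute u c := huc
          exact ((hcc.zpow_left i).zpow_right j).eq.symm)
      obtain ⟨⟨v, hvV⟩, hvne⟩ := Subgroup.ne_bot_iff_exists_ne_one.mp hVne
      have hv1 : v ≠ 1 := fun e => hvne (Subtype.ext e)
      have hvpow : v ^ q = 1 := by
        have h0 := congrArg Subtype.val (hkey ⟨v, hvV⟩)
        rw [Nat.card_zpowers, hxo'] at h0
        simpa using h0
      have hvo : orderOf v = q := by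
        rcases (Nat.dvd_prime hq).mp (orderOf_dvd_of_pow_eq_one hvpow) with h | h
        · exact absurd (orderOf_eq_one_iff.mp h) hv1
        · exact h
      apply hqH
      rw [← hvo]
      exact Subgroup.orderOf_dvd_natCard H (hVH hvV)
  refine ⟨hHbot, hHtop, ⟨E, hE, hFC, ?_⟩, ?_⟩
  · intro e heE he1
    rw [eq_bot_iff]
    intro h hh
    obtain ⟨hhH, hhC⟩ := Subgroup.mem_inf.mp hh
    rw [Helper5.mem_centralizer_singleton_iff] at hhC
    rw [Subgroup.mem_bot]
    exact hfrob e heE he1 h hhH hhC
  · haveI := hEnil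
    have hsurj : Function.Surjective ((QuotientGroup.mk' H).comp E.subtype) := by
      intro gb
      obtain ⟨g, rfl⟩ := QuotientGroup.mk'_surjective H gb
      obtain ⟨h, hhH, e₀, he₀, hge⟩ := mem_sup_of_le_normalizer_right H E hEN
        (show g ∈ H ⊔ E by rw [hsup]; exact Subgroup.mem_top g)
      refine ⟨⟨e₀, he₀⟩, ?_⟩
      show QuotientGroup.mk' H e₀ = QuotientGroup.mk' H g
      have hh1 : QuotientGroup.mk' H h = 1 := by
        rw [QuotientGroup.mk'_apply, QuotientGroup.eq_one_iff]
        exact hhH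
      rw [← hge, map_mul, hh1, one_mul]
    exact Group.nilpotent_of_surjective _ hsurj

end Cfsg.Agent.Helper3
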