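import Cfsg.Agent.Helper3.CN
import Cfsg.Agent.Helper4.PPrimeP
import Cfsg.Agent.Helper4.PGroup
import Cfsg.Prelude.Def_LieExceptional

/-! CN-groups: subgroups, isomorphic copies, quotients by solvable normal subgroups. -/

set_option autoImplicit false

universe u

namespace Cfsg.Agent.Helper3

theorem isCNGroup_subgroup {G : Type*} [Group G] (hCN : Cfsg.IsCNGroup G) (C : Subgroup G) :
    Cfsg.IsCNGroup ↥C := by
  intro c hc
  have hc' : (c : G) ≠ 1 := fun h => hc (Subtype.ext h)
  haveI := hCN (c : G) hc'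
  let f : ↥(Subgroup.centralizer ({c} : Set ↥C)) →*
      ↥(Subgroup.centralizer ({(c : G)} : Set G)) :=
    { toFun := fun y => ⟨((y : ↥C) : G), by
          rw [Helper5.mem_centralizer_singleton_iff]
          have h := (Helper5.mem_centralizer_singleton_iff c (y : ↥C)).mp y.2
          exact congrArg Subtype.val h⟩
      map_one' := rfl
      map_mul' := fun a b => rfl }
  refine nilpotent_of_injective f ?_
  intro a b hab
  have h1 : ((a : ↥C) : G) = ((b : ↥C) : G) :=
    congrArg (fun w : ↥(Subgroup.centralizer ({(c : G)} : Set G)) => (w : G)) hab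
  exact Subtype.ext (Subtype.ext h1)

theorem isCNGroup_of_mulEquiv {G G' : Type*} [Group G] [Group G'] (e : G ≃* G')
    (hCN : Cfsg.IsCNGroup G) : Cfsg.IsCNGroup G' := by
  intro c hc
  have hc' : e.symm c ≠ 1 := by
    intro h
    apply hc
    have h2 := congrArg e h
    rwa [e.apply_symm_apply, map_one] at h2
  haveI := hCN (e.symm c) hc'
  let f : ↥(Subgroup.centralizer ({c} : Set G')) →*
      ↥(Subgroup.centralizer ({e.symm c} : Set G)) :=
    { toFun := fun y => ⟨e.symm (y : G'), by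
          rw [Helper5.mem_centralizer_singleton_iff]
          have h := (Helper5.mem_centralizer_singleton_iff c (y : G')).mp y.2
          rw [← map_mul, ← map_mul, h]⟩
      map_one' := Subtype.ext (map_one e.symm)
      map_mul' := fun a b => Subtype.ext (map_mul e.symm _ _) }
  refine nilpotent_of_injective f ?_
  intro a b hab
  have h1 : e.symm (a : G') = e.symm (b : G') :=
    congrArg (fun w : ↥(Subgroup.centralizer ({e.symm c} : Set G)) => (w : G)) hab
  exact Subtype.ext (e.symm.injective h1)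

/-- Nilpotency criterion for CN-groups: a nontrivial normal `p`-subgroup centralized by all
elements of prime power order for primes other than `p`. -/
theorem nilpotent_of_cn_of_normal_pgroup {X : Type*} [Group X] [Finite X]
    (hCN : Cfsg.IsCNGroup X) (p : ℕ) [Fact p.Prime] (Z : Subgroup X) [Z.Normal]
    (hZp : IsPGroup p Z) (hZ : Z ≠ ⊥)
    (hcent : ∀ (y : X) (r b : ℕ), r.Prime → r ≠ p → orderOf y = r ^ b →
      ∀ z ∈ Z, y * z = z * y) : Group.IsNilpotent X := by
  classical
  obtain ⟨S⟩ : Nonempty (Sylow p X) := inferInstance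
  have hZS : Z ≤ (S : Subgroup X) :=
    (Helper5.le_pCore Z inferInstance hZp).trans (Helper5.pCore_le_sylow S)
  obtain ⟨z₀, hz₀⟩ := (Subgroup.ne_bot_iff_exists_ne_one).mp hZ
  have hsubne : Z.subgroupOf (S : Subgroup X) ≠ ⊥ := by
    intro hbot
    have hmem : (⟨(z₀ : X), hZS z₀.2⟩ : ↥(S : Subgroup X)) ∈ Z.subgroupOf (S : Subgroup X) :=
      Subgroup.mem_subgroupOf.mpr z₀.2
    rw [hbot, Subgroup.mem_bot] at hmem
    have h3 : (z₀ : X) = 1 := congrArg (fun w : ↥(S : Subgroup X) => (w : X)) hmem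
    exact hz₀ (Subtype.ext h3)
  obtain ⟨z, hzZ, hz1, hzc⟩ :=
    Helper4.exists_ne_one_mem_center_of_normal S.2 (Z.subgroupOf (S : Subgroup X)) hsubne
  have hz1' : (z : X) ≠ 1 := fun h => hz1 (Subtype.ext h)
  have hzZ' : (z : X) ∈ Z := Subgroup.mem_subgroupOf.mp hzZ
  have hzS : ∀ s ∈ (S : Subgroup X), s * (z : X) = (z : X) * s := by
    intro s hs
    exact congrArg Subtype.val (Subgroup.mem_center_iff.mp hzc ⟨s, hs⟩)
  have hD := hCN (z : X) hz1'
  have htop : Subgroup.centralizer ({(z : X)} : Set X) = ⊤ := by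
    apply Subgroup.index_eq_one.mp
    apply Nat.eq_one_iff_not_exists_prime_dvd.mpr
    intro r hr hrd
    haveI : Fact r.Prime := ⟨hr⟩
    by_cases hrp : r = p
    · have hSD : (S : Subgroup X) ≤ Subgroup.centralizer ({(z : X)} : Set X) := by
        intro s hs
        rw [Helper5.mem_centralizer_singleton_iff]
        exact hzS s hs
      rw [hrp] at hrd
      exact S.not_dvd_index (dvd_trans hrd (Subgroup.index_dvd_of_le hSD))
    · obtain ⟨R⟩ : Nonempty (Sylow r X) := inferInstance
      have hRD : (R : Subgroup X) ≤ Subgroup.centralizer ({(z : X)} : Set X) := by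
        intro y hy
        rw [Helper5.mem_centralizer_singleton_iff]
        obtain ⟨b, hb⟩ := (IsPGroup.iff_orderOf).mp R.2 ⟨y, hy⟩
        rw [Subgroup.orderOf_mk] at hb
        exact hcent y r b hr hrp hb _ hzZ'
      exact R.not_dvd_index (dvd_trans hrd (Subgroup.index_dvd_of_le hRD))
  rw [htop] at hD
  haveI := hD
  exact Group.nilpotent_of_mulEquiv (Subgroup.topEquiv (G := X))

/-- An element of prime order in a quotient lifts to an element of prime power order. -/
theorem exists_prime_pow_lift {G Q : Type*} [Group G] [Finite G] [Group Q] (π : G →* Q)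
    (hπ : Function.Surjective π) (q : ℕ) (hq : q.Prime) (xb : Q) (hxb : orderOf xb = q) :
    ∃ x : G, π x = xb ∧ ∃ a : ℕ, orderOf x = q ^ a := by
  obtain ⟨x₀, hx₀⟩ := hπ xb
  obtain ⟨a, m, hqm, hnm⟩ :=
    Nat.exists_eq_pow_mul_and_not_dvd (orderOf_pos x₀).ne' q hq.ne_one
  have hcop : Nat.Coprime m q := ((Nat.Prime.coprime_iff_not_dvd hq).mpr hqm).symm
  obtain ⟨t, -, ht⟩ := Nat.exists_mul_mod_eq_one_of_coprime hcop hq.one_lt
  refine ⟨x₀ ^ (m * t), ?_, ?_⟩
  · rw [map_pow, hx₀, ← pow_mod_orderOf, hxb, ht, pow_one]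
  · have hpow : (x₀ ^ (m * t)) ^ (q ^ a) = 1 := by
      rw [← pow_mul]
      have e : m * t * q ^ a = orderOf x₀ * t := by
        rw [hnm]
        ring
      rw [e, pow_mul, pow_orderOf_eq_one, one_pow]
    obtain ⟨b, -, hb⟩ := (Nat.dvd_prime_pow hq).mp (orderOf_dvd_of_pow_eq_one hpow)
    exact ⟨b, hb⟩

/-- The key step: quotient of a CN-group by a nontrivial abelian normal `p`-subgroup. -/
theorem isCNGroup_quotient_abelian_pgroup {G : Type u} [Group G] [Finite G]
    (hCN : Cfsg.IsCNGroup G) (p : ℕ) [Fact p.Prime] (N : Subgroup G) [N.Normal]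
    (hNp : IsPGroup p N) (hN : N ≠ ⊥) (hNab : ∀ a ∈ N, ∀ b ∈ N, a * b = b * a) :
    Cfsg.IsCNGroup (G ⧸ N) := by
  classical
  obtain ⟨π, hπ, hker⟩ : ∃ π : G →* G ⧸ N, Function.Surjective π ∧ π.ker = N :=
    ⟨QuotientGroup.mk' N, QuotientGroup.mk'_surjective N, QuotientGroup.ker_mk' N⟩
  have hpp : p.Prime := Fact.out
  intro xb hxb
  have hob : orderOf xb ≠ 1 := fun h => hxb (orderOf_eq_one_iff.mp h)
  obtain ⟨q, hq, hqx⟩ := Nat.exists_prime_and_dvd hob
  obtain ⟨xb', hxb'⟩ : ∃ xb' : G ⧸ N, xb' = xb ^ (orderOf xb / q) := ⟨_, rfl⟩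
  have hxb'o : orderOf xb' = q := by
    rw [hxb']
    exact orderOf_pow_orderOf_div (orderOf_pos xb).ne' hqx
  have hle : Subgroup.centralizer ({xb} : Set (G ⧸ N)) ≤
      Subgroup.centralizer ({xb'} : Set (G ⧸ N)) := by
    intro g hg
    rw [Helper5.mem_centralizer_singleton_iff] at hg ⊢
    rw [hxb']
    have hc : Commute g xb := hg
    exact (hc.pow_right _).eq
  suffices hnil : Group.IsNilpotent (Subgroup.centralizer ({xb'} : Set (G ⧸ N))) by
    haveI := hnil
    exact nilpotent_of_le hle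
  obtain ⟨x, hx, a, hxo⟩ := exists_prime_pow_lift π hπ q hq xb' hxb'o
  have hmemN : ∀ g : G, g ∈ N ↔ π g = 1 := by
    intro g
    constructor
    · intro h
      have h' : g ∈ π.ker := by rw [hker]; exact h
      exact MonoidHom.mem_ker.mp h'
    · intro h
      have h' : g ∈ π.ker := MonoidHom.mem_ker.mpr h
      rw [hker] at h'
      exact h'
  have hxN : x ∉ N := by
    intro h
    rw [hmemN, hx] at h
    rw [h, orderOf_one] at hxb'o
    exact hq.one_lt.ne hxb'o
  have hx1 : x ≠ 1 := fun h => hxN (h ▸ N.one_mem)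
  haveI : Fact q.Prime := ⟨hq⟩
  by_cases hqp : q = p
  · rw [hqp] at hxo
    obtain ⟨C, hC⟩ : ∃ C : Subgroup G,
        C = (Subgroup.centralizer ({xb'} : Set (G ⧸ N))).comap π := ⟨_, rfl⟩
    have hCmem : ∀ g : G, g ∈ C ↔ π g * xb' = xb' * π g := by
      intro g
      rw [hC, Subgroup.mem_comap, Helper5.mem_centralizer_singleton_iff]
    have hNC : N ≤ C := by
      intro n hn
      rw [hCmem, (hmemN n).mp hn, one_mul, mul_one]
    obtain ⟨Z₀, hZ₀⟩ : ∃ Z₀ : Subgroup G, Z₀ = N ⊓ Subgroup.centralizer ({x} : Set G) :=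
      ⟨_, rfl⟩
    have hZ₀mem : ∀ z : G, z ∈ Z₀ ↔ z ∈ N ∧ z * x = x * z := by
      intro z
      rw [hZ₀, Subgroup.mem_inf, Helper5.mem_centralizer_singleton_iff]
    have hCZ : C ≤ Subgroup.normalizer (Z₀ : Set G) := by
      apply le_normalizer_of_conj_mem
      intro g hg z hz
      obtain ⟨hzN, hzx⟩ := (hZ₀mem z).mp hz
      rw [hCmem] at hg
      rw [hZ₀mem]
      refine ⟨Subgroup.Normal.conj_mem inferInstance z hzN g, ?_⟩
      obtain ⟨n', hn'⟩ : ∃ n' : G, n' = x⁻¹ * (g⁻¹ * x * g) := ⟨_, rfl⟩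
      have hn'N : n' ∈ N := by
        rw [hmemN, hn']
        simp only [map_mul, map_inv]
        rw [hx, mul_assoc ((π g)⁻¹), ← hg, inv_mul_cancel_left, inv_mul_cancel]
      have hgx : g⁻¹ * x * g = x * n' := by
        rw [hn']
        group
      have key : z * (x * n') = (x * n') * z := by
        calc z * (x * n') = (z * x) * n' := by rw [mul_assoc]
          _ = (x * z) * n' := by rw [hzx]
          _ = x * (z * n') := by rw [mul_assoc]
          _ = x * (n' * z) := by rw [hNab z hzN n' hn'N]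
          _ = (x * n') * z := by rw [mul_assoc]
      calc g * z * g⁻¹ * x = g * (z * (g⁻¹ * x * g)) * g⁻¹ := by group
        _ = g * ((x * n') * z) * g⁻¹ := by rw [hgx, key]
        _ = g * ((g⁻¹ * x * g) * z) * g⁻¹ := by rw [hgx]
        _ = x * (g * z * g⁻¹) := by group
    have hZ₀ne : ∃ z ∈ Z₀, z ≠ 1 := by
      obtain ⟨P₀, hP₀⟩ : ∃ P₀ : Subgroup G, P₀ = N ⊔ Subgroup.zpowers x := ⟨_, rfl⟩
      have hNP₀ : N ≤ P₀ := by rw [hP₀]; exact le_sup_left
      have hxP₀ : x ∈ P₀ := by
        rw [hP₀]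
        exact (le_sup_right (a := N)) (Subgroup.mem_zpowers x)
      have hP₀p : IsPGroup p ↥P₀ := by
        rw [hP₀]
        exact IsPGroup.to_sup_of_normal_left hNp
          (IsPGroup.of_card (n := a) (by rw [Nat.card_zpowers, hxo]))
      obtain ⟨n₀, hn₀⟩ := (Subgroup.ne_bot_iff_exists_ne_one).mp hN
      have hsubne : N.subgroupOf P₀ ≠ ⊥ := by
        intro hbot
        have hmem : (⟨(n₀ : G), hNP₀ n₀.2⟩ : ↥P₀) ∈ N.subgroupOf P₀ :=
          Subgroup.mem_subgroupOf.mpr n₀.2
        rw [hbot, Subgroup.mem_bot] at hmem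
        have h3 : (n₀ : G) = 1 := congrArg (fun w : ↥P₀ => (w : G)) hmem
        exact hn₀ (Subtype.ext h3)
      obtain ⟨z, hzN, hz1, hzc⟩ :=
        Helper4.exists_ne_one_mem_center_of_normal hP₀p (N.subgroupOf P₀) hsubne
      refine ⟨(z : G), ?_, fun h => hz1 (Subtype.ext h)⟩
      rw [hZ₀mem]
      refine ⟨Subgroup.mem_subgroupOf.mp hzN, ?_⟩
      have h1 := Subgroup.mem_center_iff.mp hzc ⟨x, hxP₀⟩
      exact (congrArg Subtype.val h1).symm
    have hZ₀N : Z₀ ≤ N := by
      intro z hz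
      exact ((hZ₀mem z).mp hz).1
    haveI hZn : (Z₀.subgroupOf C).Normal := Subgroup.normal_subgroupOf_of_le_normalizer hCZ
    have hZp : IsPGroup p ↥(Z₀.subgroupOf C) := (hNp.to_le hZ₀N).comap_subtype
    have hZne : Z₀.subgroupOf C ≠ ⊥ := by
      obtain ⟨z, hz, hz1⟩ := hZ₀ne
      intro hbot
      have hmem : (⟨z, hNC (hZ₀N hz)⟩ : ↥C) ∈ Z₀.subgroupOf C := Subgroup.mem_subgroupOf.mpr hz
      rw [hbot, Subgroup.mem_bot] at hmem
      exact hz1 (congrArg Subtype.val hmem)
    have hcent : ∀ (y : ↥C) (r b : ℕ), r.Prime → r ≠ p → orderOf y = r ^ b →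
        ∀ z ∈ Z₀.subgroupOf C, y * z = z * y := by
      intro y r b hr hrp hyo z hz
      haveI : Fact r.Prime := ⟨hr⟩
      have hyo' : orderOf (y : G) = r ^ b := by
        rw [Subgroup.orderOf_coe]
        exact hyo
      have hyC := (hCmem (y : G)).mp y.2
      have hcopN : (Nat.card N).Coprime r := by
        obtain ⟨c, hc⟩ := (IsPGroup.iff_card).mp hNp
        rw [hc]
        exact Nat.Coprime.pow_left c ((Nat.coprime_primes hpp hr).mpr (Ne.symm hrp))
      have hyy : (y : G)⁻¹ * (x * (y : G) * x⁻¹) ∈ N := by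
        rw [hmemN]
        simp only [map_mul, map_inv]
        rw [hx, ← hyC, mul_inv_cancel_right, inv_mul_cancel]
      obtain ⟨d, hd, hdx⟩ := Helper4.exists_conj_eq_of_mul_mem_normal_coprime N hcopN (y : G)
        (x * (y : G) * x⁻¹) ⟨b, hyo'⟩ ⟨b, by rw [orderOf_conj_mul]; exact hyo'⟩ hyy
      have hcomm : d * x * (y : G) = (y : G) * (d * x) := by
        calc d * x * (y : G) = d * (x * (y : G) * x⁻¹) * d⁻¹ * (d * x) := by group
          _ = (y : G) * (d * x) := by rw [hdx]
      have hdx1 : d * x ≠ 1 := by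
        intro h
        apply hxN
        have e : x = d⁻¹ * (d * x) := by group
        rw [e, h, mul_one]
        exact N.inv_mem hd
      obtain ⟨hzN, hzx⟩ := (hZ₀mem (z : G)).mp (Subgroup.mem_subgroupOf.mp hz)
      have hzdx : (z : G) * (d * x) = (d * x) * (z : G) := by
        calc (z : G) * (d * x) = ((z : G) * d) * x := by rw [mul_assoc]
          _ = (d * (z : G)) * x := by rw [hNab _ hzN d hd]
          _ = d * ((z : G) * x) := by rw [mul_assoc]
          _ = d * (x * (z : G)) := by rw [hzx]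
          _ = (d * x) * (z : G) := by rw [mul_assoc]
      obtain ⟨c, hc⟩ := (IsPGroup.iff_orderOf).mp hNp ⟨(z : G), hzN⟩
      rw [Subgroup.orderOf_mk] at hc
      have hyD : (y : G) ∈ Subgroup.centralizer ({d * x} : Set G) :=
        (Helper5.mem_centralizer_singleton_iff _ _).mpr hcomm.symm
      have hzD : (z : G) ∈ Subgroup.centralizer ({d * x} : Set G) :=
        (Helper5.mem_centralizer_singleton_iff _ _).mpr hzdx
      have hfin := commute_in_nilpotent _ (hCN (d * x) hdx1) hr hpp hrp hyD hzD hyo' hc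
      exact Subtype.ext hfin
    have hCnil : Group.IsNilpotent ↥C :=
      nilpotent_of_cn_of_normal_pgroup (isCNGroup_subgroup hCN C) p (Z₀.subgroupOf C) hZp hZne
        hcent
    haveI := hCnil
    have hmap : C.map π = Subgroup.centralizer ({xb'} : Set (G ⧸ N)) := by
      rw [hC]
      exact Subgroup.map_comap_eq_self_of_surjective hπ _
    rw [← hmap]
    exact Group.nilpotent_of_surjective _ (MonoidHom.subgroupMap_surjective π C)
  · have hcopN : (Nat.card N).Coprime q := by
      obtain ⟨c, hc⟩ := (IsPGroup.iff_card).mp hNp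
      rw [hc]
      exact Nat.Coprime.pow_left c ((Nat.coprime_primes hpp hq).mpr (Ne.symm hqp))
    have hsub : Subgroup.centralizer ({xb'} : Set (G ⧸ N)) ≤
        (Subgroup.centralizer ({x} : Set G)).map π := by
      intro gb hgb
      rw [Helper5.mem_centralizer_singleton_iff] at hgb
      obtain ⟨g, rfl⟩ := hπ gb
      have hyy : x⁻¹ * (g * x * g⁻¹) ∈ N := by
        rw [hmemN]
        simp only [map_mul, map_inv]
        rw [hx, hgb, mul_inv_cancel_right, inv_mul_cancel]
      obtain ⟨d, hd, hdx⟩ := Helper4.exists_conj_eq_of_mul_mem_normal_coprime N hcopN x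
        (g * x * g⁻¹) ⟨a, hxo⟩ ⟨a, by rw [orderOf_conj_mul]; exact hxo⟩ hyy
      refine ⟨d * g, ?_, ?_⟩
      · rw [SetLike.mem_coe, Helper5.mem_centralizer_singleton_iff]
        calc d * g * x = d * (g * x * g⁻¹) * d⁻¹ * (d * g) := by group
          _ = x * (d * g) := by rw [hdx]
      · rw [map_mul, (hmemN d).mp hd, one_mul]
    haveI := hCN x hx1
    haveI : Group.IsNilpotent ((Subgroup.centralizer ({x} : Set G)).map π) :=
      Group.nilpotent_of_surjective _ (MonoidHom.subgroupMap_surjective π _)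
    exact nilpotent_of_le hsub

/-- A nontrivial solvable normal subgroup contains a nontrivial abelian `p`-subgroup normal in
the whole group. -/
theorem exists_normal_abelian_pgroup_le {G : Type u} [Group G] [Finite G] (H : Subgroup G)
    [H.Normal] (hH : Group.IsSolvable H) (hne : H ≠ ⊥) :
    ∃ p : ℕ, p.Prime ∧ ∃ N : Subgroup G, N.Normal ∧ N ≤ H ∧ N ≠ ⊥ ∧ IsPGroup p N ∧
      ∀ a ∈ N, ∀ b ∈ N, a * b = b * a := by
  classical
  haveI : Nontrivial ↥H := (Subgroup.nontrivial_iff_ne_bot H).mpr hne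
  have hsol : ∃ n, derivedSeries ↥H n = ⊥ := (Group.isSolvable_def ↥H).mp hH
  have hm := Nat.find_spec hsol
  have hm0 : Nat.find hsol ≠ 0 := by
    intro h0
    rw [h0, derivedSeries_zero] at hm
    exact top_ne_bot hm
  obtain ⟨k, hk⟩ := Nat.exists_eq_succ_of_ne_zero hm0
  have hVne : derivedSeries ↥H k ≠ ⊥ :=
    Nat.find_min hsol (by rw [hk]; exact Nat.lt_succ_self k)
  have hVc : IsMulCommutative (derivedSeries ↥H k) := by
    rw [hk, derivedSeries_succ] at hm
    exact Subgroup.le_centralizer_iff_isMulCommutative.mp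
      (Subgroup.commutator_eq_bot_iff_le_centralizer.mp hm)
  obtain ⟨V, hV⟩ : ∃ V : Subgroup G, V = (derivedSeries ↥H k).map H.subtype := ⟨_, rfl⟩
  have hVn : V.Normal := by
    rw [hV]
    exact ConjAct.normal_of_characteristic_of_normal
  have hVH : V ≤ H := by
    rw [hV]
    exact Subgroup.map_subtype_le _
  have hVcomm : ∀ a ∈ V, ∀ b ∈ V, a * b = b * a := by
    intro a ha b hb
    rw [hV] at ha hb
    obtain ⟨a', ha', rfl⟩ := Subgroup.mem_map.mp ha
    obtain ⟨b', hb', rfl⟩ := Subgroup.mem_map.mp hb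
    have h1 := Helper5.comm_of_isMulCommutative hVc a' ha' b' hb'
    exact congrArg Subtype.val h1
  have hVne' : V ≠ ⊥ := by
    rw [hV]
    intro h
    exact hVne ((Subgroup.map_eq_bot_iff_of_injective _ H.subtype_injective).mp h)
  have hVcard : Nat.card V ≠ 1 := by
    intro h1
    exact hVne' (Subgroup.eq_bot_of_card_eq _ h1)
  obtain ⟨r, hr, hrd⟩ := Nat.exists_prime_and_dvd hVcard
  haveI : Fact r.Prime := ⟨hr⟩
  obtain ⟨z, hz⟩ := exists_prime_orderOf_dvd_card' r hrd
  have hzr : (z : G) ^ r = 1 := by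
    have h1 : z ^ r = 1 := by
      rw [← hz]
      exact pow_orderOf_eq_one z
    have h2 := congrArg Subtype.val h1
    simpa using h2
  let U : Subgroup G :=
    { carrier := {x | x ∈ V ∧ x ^ r = 1}
      mul_mem' := by
        rintro a b ⟨ha, ha'⟩ ⟨hb, hb'⟩
        refine ⟨Subgroup.mul_mem _ ha hb, ?_⟩
        have hc : Commute a b := hVcomm a ha b hb
        rw [hc.mul_pow, ha', hb', one_mul]
      one_mem' := ⟨Subgroup.one_mem _, one_pow r⟩
      inv_mem' := by
        rintro a ⟨ha, ha'⟩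
        exact ⟨Subgroup.inv_mem _ ha, by rw [inv_pow, ha', inv_one]⟩ }
  refine ⟨r, hr, U, ?_, ?_, ?_, ?_, ?_⟩
  · constructor
    rintro x ⟨hx, hx'⟩ g
    refine ⟨hVn.conj_mem x hx g, ?_⟩
    rw [conj_pow, hx', mul_one, mul_inv_cancel]
  · rintro x ⟨hx, -⟩
    exact hVH hx
  · intro hbot
    have hzU : (z : G) ∈ U := ⟨z.2, hzr⟩
    rw [hbot, Subgroup.mem_bot] at hzU
    have hz1 : z = 1 := Subtype.ext hzU
    rw [hz1, orderOf_one] at hz
    exact hr.one_lt.ne' hz.symm
  · rintro ⟨x, hx, hx'⟩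
    refine ⟨1, Subtype.ext ?_⟩
    show x ^ r ^ 1 = 1
    rw [pow_one]
    exact hx'
  · rintro a ⟨ha, -⟩ b ⟨hb, -⟩
    exact hVcomm a ha b hb

theorem isCNGroup_quotient_solvable_aux : ∀ n : ℕ, ∀ (G : Type u) [Group G] [Finite G],
    Cfsg.IsCNGroup G → ∀ (H : Subgroup G) [H.Normal], Group.IsSolvable H → Nat.card H = n →
    Cfsg.IsCNGroup (G ⧸ H) := by
  intro n
  induction n using Nat.strong_induction_on with
  | _ n ih =>
  intro G _ _ hCN H _ hH hn
  by_cases hbot : H = ⊥
  · subst hbot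
    exact isCNGroup_of_mulEquiv (QuotientGroup.quotientBot (G := G)).symm hCN
  · obtain ⟨p, hp, N, hNn, hNH, hNne, hNp, hNab⟩ := exists_normal_abelian_pgroup_le H hH hbot
    haveI := hNn
    haveI : Fact p.Prime := ⟨hp⟩
    have hCN' := isCNGroup_quotient_abelian_pgroup hCN p N hNp hNne hNab
    have hHsol' : Group.IsSolvable (H.map (QuotientGroup.mk' N)) := by
      haveI := hH
      exact Group.isSolvable_of_surjective
        (MonoidHom.subgroupMap_surjective (QuotientGroup.mk' N) H)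
    haveI : (H.map (QuotientGroup.mk' N)).Normal :=
      Subgroup.Normal.map inferInstance _ (QuotientGroup.mk'_surjective N)
    have hcard : Nat.card (H.map (QuotientGroup.mk' N)) < n := by
      rw [← hn]
      by_contra hge
      have hge' : Nat.card H ≤ Nat.card (H.map (QuotientGroup.mk' N)) := not_lt.mp hge
      have hbij := Function.Surjective.bijective_of_nat_card_le
        (MonoidHom.subgroupMap_surjective (QuotientGroup.mk' N) H) hge'
      obtain ⟨n₀, hn₀⟩ := (Subgroup.ne_bot_iff_exists_ne_one).mp hNne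
      have h1 : (QuotientGroup.mk' N).subgroupMap H ⟨(n₀ : G), hNH n₀.2⟩ =
          (QuotientGroup.mk' N).subgroupMap H 1 := by
        apply Subtype.ext
        rw [map_one]
        show QuotientGroup.mk' N (n₀ : G) = 1
        rw [QuotientGroup.mk'_apply, QuotientGroup.eq_one_iff]
        exact n₀.2
      have h2 := hbij.injective h1
      have h3 : (n₀ : G) = 1 := congrArg (fun w : ↥H => (w : G)) h2
      exact hn₀ (Subtype.ext h3)
    have h1 := ih _ hcard (G ⧸ N) hCN' (H.map (QuotientGroup.mk' N)) hHsol' rfl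
    exact isCNGroup_of_mulEquiv (QuotientGroup.quotientQuotientEquivQuotient N H hNH) h1

end Cfsg.Agent.Helper3
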