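import Mathlib
import Cfsg.Prelude.Def_Characters
import Cfsg.Agent.Lead.CharEig

namespace Cfsg.Agent.Helper3

/-- the real part of a character value is at most the degree, with equality only at the
degree itself -/
theorem character_re_le {G : Type*} [Group G] [Finite G] {χ : G → ℂ}
    (hχ : Cfsg.IsCharacter G χ) (g : G) :
    (χ g).re ≤ (χ 1).re ∧ ((χ g).re = (χ 1).re → χ g = χ 1) := by
  obtain ⟨n, ρ, rfl⟩ := hχ
  have h1 : ρ.character 1 = ((ρ g).charpoly.roots.card : ℂ) := by
    rw [Representation.char_one, Lead.charpoly_roots_card]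
  have hn : ∀ μ ∈ (ρ g).charpoly.roots, ‖μ‖ = 1 := fun μ hμ => Lead.charpoly_root_norm ρ g hμ
  have haux := Lead.multiset_unit_sum_aux _ hn
  rw [Lead.character_eq_sum_roots ρ g, h1]
  simp only [Complex.natCast_re]
  refine ⟨haux.1, fun h => ?_⟩
  have h2 := haux.2 h
  rw [Multiset.eq_replicate_card.mpr h2]
  simp
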