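import Mathlib
import Cfsg.Prelude
import Cfsg.Agent.Helper3.Local
import Cfsg.Agent.Helper3.Layer
import Cfsg.Agent.Helper3.FStar
import Cfsg.Agent.Helper5.Cores

/-! 2-locals have characteristic 2 when involution centralizers are solvable with trivial odd core. -/

set_option autoImplicit false

universe u

namespace Cfsg.Agent.Helper3.CharTwo

open Cfsg Cfsg.Agent.Helper3

theorem char_two_local {G : Type u} [Group G] [Finite G] (T : Subgroup G) (hT : IsPGroup 2 T)
    (x : G) (hxT : x ∈ T) (hxZ : ∀ t ∈ T, t * x = x * t)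
    (K : Subgroup G) (hKx : ∀ g : G, g ∈ K ↔ x * g = g * x)
    (hKs : Group.IsSolvable K) (hKO : Cfsg.pPrimeCore 2 K = ⊥) :
    Cfsg.IsOfCharacteristicTwo ↥(Subgroup.normalizer (T : Set G)) := by
  haveI : Fact (Nat.Prime 2) := ⟨Nat.prime_two⟩
  haveI := hKs
  have hK1 : Cfsg.generalizedFittingSubgroup K = Cfsg.pCore 2 K :=
    (fstar_eq_pCore_iff 2).mpr ⟨layer_eq_bot_of_le_solvable ⊤ inferInstance le_top, hKO⟩
  have hTK : T ≤ K := fun t ht => (hKx t).mpr (hxZ t ht).symm
  have hP : IsPGroup 2 (T.subgroupOf K) := hT.comap_subtype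
  have hN1 := fstar_normalizer_eq_pCore 2 hK1 (T.subgroupOf K) hP
  obtain ⟨-, hNO⟩ := (fstar_eq_pCore_iff 2).mp hN1
  suffices h : Cfsg.layer ↥(Subgroup.normalizer (T : Set G)) = ⊥ ∧
      Cfsg.pPrimeCore 2 ↥(Subgroup.normalizer (T : Set G)) = ⊥ by
    have h1 := (fstar_eq_pCore_iff 2).mpr h
    have h2 := centralizer_fstar_le ↥(Subgroup.normalizer (T : Set G))
    rw [h1] at h2
    exact h2
  haveI hT'n : (T.subgroupOf (Subgroup.normalizer (T : Set G))).Normal :=
    (Subgroup.normal_subgroupOf_iff_le_normalizer Subgroup.le_normalizer).mpr le_rfl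
  have hT'Q : T.subgroupOf (Subgroup.normalizer (T : Set G)) ≤
      Cfsg.pCore 2 ↥(Subgroup.normalizer (T : Set G)) := le_pCore _ hT.comap_subtype
  have hx'Q : (⟨x, Subgroup.le_normalizer hxT⟩ : ↥(Subgroup.normalizer (T : Set G))) ∈
      Cfsg.pCore 2 ↥(Subgroup.normalizer (T : Set G)) :=
    hT'Q (Subgroup.mem_subgroupOf.mpr hxT)
  have hcommK : ∀ r : ↥(Subgroup.normalizer (T : Set G)),
      (⟨x, Subgroup.le_normalizer hxT⟩ : ↥(Subgroup.normalizer (T : Set G))) * r =
        r * ⟨x, Subgroup.le_normalizer hxT⟩ → (r : G) ∈ K := by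
    intro r hr
    exact (hKx _).mpr (congrArg Subtype.val hr)
  constructor
  · have hψinj : Function.Injective
        (((Subgroup.normalizer (T : Set G)).subtype.comp
          (K.subgroupOf (Subgroup.normalizer (T : Set G))).subtype).codRestrict K
            (fun h => Subgroup.mem_subgroupOf.mp h.2)) := by
      intro a b hab
      have h := congrArg Subtype.val hab
      exact Subtype.ext (Subtype.ext h)
    have hsol : Group.IsSolvable ↥(K.subgroupOf (Subgroup.normalizer (T : Set G))) :=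
      Group.isSolvable_of_isSolvable_injective hψinj
    apply layer_eq_bot_of_le_solvable (K.subgroupOf (Subgroup.normalizer (T : Set G))) hsol
    intro e he
    rw [Subgroup.mem_subgroupOf]
    apply hcommK
    have h1 := layer_le_centralizer_fitting he
    exact Subgroup.mem_centralizer_iff.mp h1 _ (pCore_le_fitting 2 _ hx'Q)
  · rw [eq_bot_iff]
    intro r hr
    rw [Subgroup.mem_bot]
    have hrc : (⟨x, Subgroup.le_normalizer hxT⟩ : ↥(Subgroup.normalizer (T : Set G))) * r =
        r * ⟨x, Subgroup.le_normalizer hxT⟩ :=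
      Subgroup.mem_centralizer_iff.mp (pPrimeCore_le_centralizer_pCore 2 _ hr) _ hx'Q
    have hrK : (r : G) ∈ K := hcommK r hrc
    have hmem : ∀ n : ↥(Subgroup.normalizer ((T.subgroupOf K : Subgroup ↥K) : Set ↥K)),
        (K.subtype.comp
          (Subgroup.normalizer ((T.subgroupOf K : Subgroup ↥K) : Set ↥K)).subtype) n ∈
          Subgroup.normalizer (T : Set G) := by
      intro n
      rw [Subgroup.mem_normalizer_iff]
      intro t
      have hn := Subgroup.mem_normalizer_iff.mp n.2
      constructor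
      · intro ht
        have h1 := (hn ⟨t, hTK ht⟩).mp (Subgroup.mem_subgroupOf.mpr ht)
        exact Subgroup.mem_subgroupOf.mp h1
      · intro ht
        have htK : t ∈ K := by
          have h1 : ((n : ↥K) : G) * t * ((n : ↥K) : G)⁻¹ ∈ K := hTK ht
          have h2 := K.mul_mem (K.mul_mem (K.inv_mem (n : ↥K).2) h1) (n : ↥K).2
          have e : ((n : ↥K) : G)⁻¹ * (((n : ↥K) : G) * t * ((n : ↥K) : G)⁻¹) *
              ((n : ↥K) : G) = t := by group
          rwa [e] at h2
        have h1 := (hn ⟨t, htK⟩).mpr (Subgroup.mem_subgroupOf.mpr ht)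
        exact Subgroup.mem_subgroupOf.mp h1
    obtain ⟨φ, hφ⟩ : ∃ φ : ↥(Subgroup.normalizer ((T.subgroupOf K : Subgroup ↥K) : Set ↥K)) →*
          ↥(Subgroup.normalizer (T : Set G)),
        φ = (K.subtype.comp
          (Subgroup.normalizer ((T.subgroupOf K : Subgroup ↥K) : Set ↥K)).subtype).codRestrict
            _ hmem := ⟨_, rfl⟩
    have hφinj : Function.Injective φ := by
      rw [hφ, MonoidHom.injective_codRestrict]
      exact (Subgroup.subtype_injective _).comp (Subgroup.subtype_injective _)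
    have hR' : (Cfsg.pPrimeCore 2 ↥(Subgroup.normalizer (T : Set G))).comap φ ≤
        Cfsg.pPrimeCore 2 ↥(Subgroup.normalizer ((T.subgroupOf K : Subgroup ↥K) : Set ↥K)) := by
      apply Helper5.le_pPrimeCore _ ((Helper5.pPrimeCore_normal' 2 _).comap φ)
      exact Nat.Coprime.coprime_dvd_left (Subgroup.card_comap_dvd_of_injective _ φ hφinj)
        (Helper5.pPrimeCore_coprime 2 _)
    rw [hNO] at hR'
    have hrN : (⟨(r : G), hrK⟩ : ↥K) ∈
        Subgroup.normalizer ((T.subgroupOf K : Subgroup ↥K) : Set ↥K) := by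
      rw [Subgroup.mem_normalizer_iff]
      intro k
      rw [Subgroup.mem_subgroupOf, Subgroup.mem_subgroupOf]
      exact Subgroup.mem_normalizer_iff.mp r.2 (k : G)
    have hφr : φ ⟨⟨(r : G), hrK⟩, hrN⟩ = r := by
      rw [hφ]; rfl
    have h1 : (⟨⟨(r : G), hrK⟩, hrN⟩ :
        ↥(Subgroup.normalizer ((T.subgroupOf K : Subgroup ↥K) : Set ↥K))) ∈
        (Cfsg.pPrimeCore 2 ↥(Subgroup.normalizer (T : Set G))).comap φ := by
      rw [Subgroup.mem_comap, hφr]; exact hr
    have h2 := Subgroup.mem_bot.mp (hR' h1)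
    rw [← hφr, h2, map_one]

theorem char_two_type {G : Type u} [Group G] [Finite G] (h2 : Even (Nat.card G))
    (hs : ∀ t : G, orderOf t = 2 → Group.IsSolvable (Subgroup.centralizer ({t} : Set G)))
    (hc : ∀ t : G, orderOf t = 2 → Cfsg.oddCore (Subgroup.centralizer ({t} : Set G)) = ⊥) :
    Cfsg.IsCharacteristicTwoType G := by
  haveI : Fact (Nat.Prime 2) := ⟨Nat.prime_two⟩
  refine ⟨h2, ?_⟩
  intro T hT hT1
  haveI : Nontrivial T := (Subgroup.nontrivial_iff_ne_bot T).mpr hT1
  haveI := hT.center_nontrivial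
  have hZp : IsPGroup 2 (Subgroup.center T) := hT.to_subgroup _
  obtain ⟨k, hk⟩ := IsPGroup.iff_card.mp hZp
  have hk0 : k ≠ 0 := by
    rintro rfl
    rw [pow_zero] at hk
    have h1 : 1 < Nat.card (Subgroup.center T) := Finite.one_lt_card
    omega
  have hdvd : 2 ∣ Nat.card (Subgroup.center T) := by rw [hk]; exact dvd_pow_self 2 hk0
  obtain ⟨z, hz⟩ := exists_prime_orderOf_dvd_card' 2 hdvd
  refine char_two_local T hT ((z : T) : G) (z : T).2 ?_
    (Subgroup.centralizer ({((z : T) : G)} : Set G)) ?_ (hs _ ?_) (hc _ ?_)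
  · intro t ht
    have h := Subgroup.mem_center_iff.mp z.2 ⟨t, ht⟩
    exact congrArg Subtype.val h
  · intro g
    rw [Subgroup.mem_centralizer_iff]
    simp
  · rw [Subgroup.orderOf_coe, Subgroup.orderOf_coe]; exact hz
  · rw [Subgroup.orderOf_coe, Subgroup.orderOf_coe]; exact hz

end Cfsg.Agent.Helper3.CharTwo
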