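import Mathlib
import Cfsg.Prelude
import Cfsg.Agent.Helper3.Layer2
import Cfsg.Agent.Helper3.FStar
import Cfsg.Agent.Helper4.Cores
import Cfsg.Agent.Helper6.FrobNPC

set_option autoImplicit false

/-!
# The Fitting subgroup and centralizers of chief factors
-/

namespace Cfsg.Agent.Helper3.ChiefFit

open scoped commutatorElement Pointwise

variable {G : Type*} [Group G]

/-- iterated commutator with `K` on the right. -/
def iter (K : Subgroup G) (n : ℕ) (X : Subgroup G) : Subgroup G :=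
  (fun Y : Subgroup G => ⁅Y, K⁆)^[n] X

theorem iter_zero (K X : Subgroup G) : iter K 0 X = X := rfl

theorem iter_succ (K X : Subgroup G) (n : ℕ) : iter K (n + 1) X = iter K n ⁅X, K⁆ := by
  unfold iter
  rw [Function.iterate_succ_apply]

theorem iter_succ' (K X : Subgroup G) (n : ℕ) : iter K (n + 1) X = ⁅iter K n X, K⁆ := by
  unfold iter
  rw [Function.iterate_succ_apply']

theorem iter_mono (K : Subgroup G) (n : ℕ) {X Y : Subgroup G} (h : X ≤ Y) :
    iter K n X ≤ iter K n Y := by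
  induction n with
  | zero => exact h
  | succ k ih =>
    rw [iter_succ', iter_succ']
    exact Subgroup.commutator_mono ih le_rfl

theorem fitting_centralizes_chief [Finite G] (U V : Subgroup G) (hU : U.Normal) (hV : V.Normal)
    (hVU : V < U)
    (hmin : ∀ W : Subgroup G, W.Normal → V ≤ W → W ≤ U → W = V ∨ W = U) (g : G)
    (hg : g ∈ Cfsg.fittingSubgroup G) (u : G) (hu : u ∈ U) : u * g * u⁻¹ * g⁻¹ ∈ V := by
  obtain ⟨Fg, hFg⟩ : ∃ Fg, Fg = Cfsg.fittingSubgroup G := ⟨_, rfl⟩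
  rw [← hFg] at hg
  haveI hFn : Fg.Normal := by rw [hFg]; exact Cfsg.Agent.Helper4.fittingSubgroup_normal G
  have hnil : Group.IsNilpotent ↥Fg := by rw [hFg]; exact fitting_nilpotent G
  obtain ⟨c, hc⟩ := (Subgroup.isNilpotent_iff_lowerCentralSeries Fg).1 hnil
  haveI := hU
  haveI := hV
  have hWn : (V ⊔ ⁅U, Fg⁆).Normal := inferInstance
  have hcomU : ⁅U, Fg⁆ ≤ U := Subgroup.commutator_le_left U Fg
  rcases hmin (V ⊔ ⁅U, Fg⁆) hWn le_sup_left (sup_le hVU.le hcomU) with h | h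
  · have h1 : ⁅U, Fg⁆ ≤ V := by rw [← h]; exact le_sup_right
    have h2 : ⁅u, g⁆ ∈ ⁅U, Fg⁆ := Subgroup.commutator_mem_commutator hu hg
    exact h1 h2
  · exfalso
    have key : ∀ k, U ≤ V ⊔ Fg.lowerCentralSeries k := by
      intro k
      induction k with
      | zero =>
        rw [Subgroup.lowerCentralSeries_zero]
        intro a ha
        rw [← h] at ha
        exact (sup_le le_sup_left ((Subgroup.commutator_le_right U Fg).trans le_sup_right)) ha
      | succ k ih =>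
        intro a0 ha0
        rw [← h] at ha0
        refine (sup_le le_sup_left ?_ : V ⊔ ⁅U, Fg⁆ ≤ V ⊔ Fg.lowerCentralSeries (k + 1)) ha0
        rw [Subgroup.commutator_le]
        intro a ha b hb
        have ha' := ih ha
        have ha'' : a ∈ ((V : Set G) * (Fg.lowerCentralSeries k : Set G)) := by
          rw [← Subgroup.normal_mul]; exact ha'
        obtain ⟨v, hv, t, ht, rfl⟩ := Set.mem_mul.1 ha''
        have e : ⁅v * t, b⁆ = (v * ⁅t, b⁆ * v⁻¹) * ⁅v, b⁆ := by
          simp only [commutatorElement_def]; group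
        rw [e]
        have h1 : ⁅t, b⁆ ∈ Fg.lowerCentralSeries (k + 1) :=
          Subgroup.commutator_mem_commutator ht hb
        have hn : (Fg.lowerCentralSeries (k + 1)).Normal := inferInstance
        have h2 : v * ⁅t, b⁆ * v⁻¹ ∈ Fg.lowerCentralSeries (k + 1) := hn.conj_mem _ h1 v
        have h3 : ⁅v, b⁆ ∈ V := by
          have e2 : ⁅v, b⁆ = v * (b * v⁻¹ * b⁻¹) := by
            simp only [commutatorElement_def]; group
          rw [e2]; exact V.mul_mem hv (hV.conj_mem _ (V.inv_mem hv) b)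
        exact (V ⊔ Fg.lowerCentralSeries (k + 1)).mul_mem (Subgroup.mem_sup_right h2)
          (Subgroup.mem_sup_left h3)
    have h5 := key c
    rw [hc, sup_bot_eq] at h5
    exact hVU.not_ge h5

theorem mem_fitting_of_centralizes [Finite G] (hG : Group.IsSolvable G) (N : Subgroup G)
    [N.Normal] (g : G) (hgN : g ∈ N)
    (hg : ∀ U V : Subgroup G, (U.Normal ∧ V.Normal ∧ V < U ∧
      ∀ W : Subgroup G, W.Normal → V ≤ W → W ≤ U → W = V ∨ W = U) →
      U ≤ Cfsg.fittingSubgroup G ⊓ N → ∀ u ∈ U, u * g * u⁻¹ * g⁻¹ ∈ V) :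
    g ∈ Cfsg.fittingSubgroup G := by
  haveI hFgn : (Cfsg.fittingSubgroup G).Normal := Cfsg.Agent.Helper4.fittingSubgroup_normal G
  obtain ⟨F, hF⟩ : ∃ F, F = Cfsg.fittingSubgroup G ⊓ N := ⟨_, rfl⟩
  haveI hFn : F.Normal := by rw [hF]; infer_instance
  rw [← hF] at hg
  -- the subgroup `C`
  obtain ⟨C, hC⟩ : ∃ C : Subgroup G, ∀ x, x ∈ C ↔ (x ∈ N ∧ ∀ U V : Subgroup G,
      (U.Normal ∧ V.Normal ∧ V < U ∧
        ∀ W : Subgroup G, W.Normal → V ≤ W → W ≤ U → W = V ∨ W = U) →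
      U ≤ F → ∀ u ∈ U, u * x * u⁻¹ * x⁻¹ ∈ V) := by
    refine ⟨{ carrier := {x | x ∈ N ∧ ∀ U V : Subgroup G,
                (U.Normal ∧ V.Normal ∧ V < U ∧
                  ∀ W : Subgroup G, W.Normal → V ≤ W → W ≤ U → W = V ∨ W = U) →
                U ≤ F → ∀ u ∈ U, u * x * u⁻¹ * x⁻¹ ∈ V}
              mul_mem' := ?_
              one_mem' := ?_
              inv_mem' := ?_ }, fun x => Iff.rfl⟩
    · rintro x y ⟨hxN, hx⟩ ⟨hyN, hy⟩
      refine ⟨N.mul_mem hxN hyN, ?_⟩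
      intro U V hUV hUF u hu
      have e : u * (x * y) * u⁻¹ * (x * y)⁻¹ =
          (u * x * u⁻¹ * x⁻¹) * (x * (u * y * u⁻¹ * y⁻¹) * x⁻¹) := by group
      rw [e]
      exact V.mul_mem (hx U V hUV hUF u hu) (hUV.2.1.conj_mem _ (hy U V hUV hUF u hu) x)
    · refine ⟨N.one_mem, ?_⟩
      intro U V hUV hUF u hu
      have e : u * 1 * u⁻¹ * (1 : G)⁻¹ = 1 := by group
      rw [e]; exact V.one_mem
    · rintro x ⟨hxN, hx⟩
      refine ⟨N.inv_mem hxN, ?_⟩
      intro U V hUV hUF u hu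
      have e : u * x⁻¹ * u⁻¹ * x⁻¹⁻¹ = x⁻¹ * (u * x * u⁻¹ * x⁻¹)⁻¹ * x⁻¹⁻¹ := by group
      rw [e]
      exact hUV.2.1.conj_mem _ (V.inv_mem (hx U V hUV hUF u hu)) x⁻¹
  have hCnormal : C.Normal := by
    constructor
    intro x hx h
    rw [hC] at hx ⊢
    obtain ⟨hxN, hx⟩ := hx
    refine ⟨(inferInstance : N.Normal).conj_mem _ hxN h, ?_⟩
    intro U V hUV hUF u hu
    have e : u * (h * x * h⁻¹) * u⁻¹ * (h * x * h⁻¹)⁻¹ =
        h * ((h⁻¹ * u * h⁻¹⁻¹) * x * (h⁻¹ * u * h⁻¹⁻¹)⁻¹ * x⁻¹) * h⁻¹ := by group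
    rw [e]
    exact hUV.2.1.conj_mem _ (hx U V hUV hUF _ (hUV.1.conj_mem _ hu h⁻¹)) h
  haveI := hCnormal
  have hCN : C ≤ N := fun x hx => ((hC x).1 hx).1
  have hFC : F ≤ C := by
    intro x hx
    rw [hF] at hx
    obtain ⟨hx1, hx2⟩ := Subgroup.mem_inf.1 hx
    rw [hC]
    exact ⟨hx2, fun U V hUV _ u hu =>
      fitting_centralizes_chief U V hUV.1 hUV.2.1 hUV.2.2.1 hUV.2.2.2 x hx1 u hu⟩
  have hgC : g ∈ C := (hC g).2 ⟨hgN, hg⟩
  by_contra hgF
  have hgF' : g ∉ F := fun h => hgF (by rw [hF] at h; exact (Subgroup.mem_inf.1 h).1)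
  -- derived series of `C` inside `G`
  obtain ⟨dC, hdC0, hdCs⟩ : ∃ dC : ℕ → Subgroup G, dC 0 = C ∧
      ∀ n, dC (n + 1) = ⁅dC n, dC n⁆ :=
    ⟨fun n => (fun Y : Subgroup G => ⁅Y, Y⁆)^[n] C, rfl,
      fun n => Function.iterate_succ_apply' _ _ _⟩
  have hdCn : ∀ n, (dC n).Normal := by
    intro n
    induction n with
    | zero => rw [hdC0]; exact hCnormal
    | succ k ih => rw [hdCs]; haveI := ih; infer_instance
  have hdCC : ∀ n, dC n ≤ C := by
    intro n
    induction n with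
    | zero => rw [hdC0]
    | succ k ih =>
      rw [hdCs]
      haveI := hdCn k
      exact (Subgroup.commutator_le_left (dC k) (dC k)).trans ih
  have hdCd : ∀ n, dC n ≤ derivedSeries G n := by
    intro n
    induction n with
    | zero => rw [derivedSeries_zero]; exact le_top
    | succ k ih =>
      rw [hdCs, derivedSeries_succ]
      exact Subgroup.commutator_mono ih ih
  have hex : ∃ n, dC n ≤ F := by
    obtain ⟨n, hn⟩ := hG.solvable
    exact ⟨n, (hdCd n).trans (by rw [hn]; exact bot_le)⟩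
  classical
  obtain ⟨i, hi, hmin⟩ : ∃ i, dC i ≤ F ∧ ∀ j, j < i → ¬ dC j ≤ F :=
    ⟨Nat.find hex, Nat.find_spec hex, fun j hj => Nat.find_min hex hj⟩
  have hi0 : i ≠ 0 := by
    intro h0
    rw [h0, hdC0] at hi
    exact hgF' (hi hgC)
  obtain ⟨j, rfl⟩ : ∃ j, i = j + 1 := Nat.exists_eq_succ_of_ne_zero hi0
  obtain ⟨D, hD⟩ : ∃ D, D = dC j := ⟨_, rfl⟩
  have hDF : ¬ D ≤ F := by rw [hD]; exact hmin j (Nat.lt_succ_self j)
  have hDD : ⁅D, D⁆ ≤ F := by rw [hD, ← hdCs]; exact hi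
  haveI hDn : D.Normal := by rw [hD]; exact hdCn j
  have hDC : D ≤ C := by rw [hD]; exact hdCC j
  obtain ⟨K, hK⟩ : ∃ K, K = F ⊔ D := ⟨_, rfl⟩
  haveI hKn : K.Normal := by rw [hK]; infer_instance
  have hKC : K ≤ C := by rw [hK]; exact sup_le hFC hDC
  have hFK : F ≤ K := by rw [hK]; exact le_sup_left
  have hDK : D ≤ K := by rw [hK]; exact le_sup_right
  have hKK : ⁅K, K⁆ ≤ F := by
    have hFb : F.map (QuotientGroup.mk' F) = ⊥ := by
      rw [Subgroup.map_eq_bot_iff, QuotientGroup.ker_mk']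
    have hKm : K.map (QuotientGroup.mk' F) = D.map (QuotientGroup.mk' F) := by
      rw [hK, Subgroup.map_sup, hFb, bot_sup_eq]
    have h1 : (⁅K, K⁆).map (QuotientGroup.mk' F) = ⊥ := by
      rw [Subgroup.map_commutator, hKm, ← Subgroup.map_commutator, eq_bot_iff, ← hFb]
      exact Subgroup.map_mono hDD
    rw [Subgroup.map_eq_bot_iff, QuotientGroup.ker_mk'] at h1
    exact h1
  -- the key claim
  have star : ∀ m, ∀ U : Subgroup G, U.Normal → U ≤ F → Nat.card U ≤ m →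
      ∃ n, iter K n U = ⊥ := by
    intro m
    induction m with
    | zero =>
      intro U hU hUF hc
      exfalso
      have := Nat.card_pos (α := U)
      omega
    | succ m ih =>
      intro U hU hUF hc
      by_cases hUb : U = ⊥
      · exact ⟨0, hUb⟩
      obtain ⟨V, hVS, hVmax⟩ := WellFounded.has_min
        (measure fun V : Subgroup G => Nat.card U - Nat.card V).wf
        {V : Subgroup G | V.Normal ∧ V < U} ⟨⊥, inferInstance, bot_lt_iff_ne_bot.2 hUb⟩
      obtain ⟨hVn, hVU⟩ := hVS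
      have hmax : ∀ W : Subgroup G, W.Normal → W < U → V ≤ W → W = V := by
        intro W hWn hWU hVW
        by_contra hne
        have hlt : V < W := lt_of_le_of_ne hVW (Ne.symm hne)
        have h1 := Cfsg.Agent.Helper6.card_lt_of_lt' hlt
        have h2 := Cfsg.Agent.Helper6.card_lt_of_lt' hWU
        apply hVmax W ⟨hWn, hWU⟩
        show Nat.card U - Nat.card W < Nat.card U - Nat.card V
        omega
      have hchief : U.Normal ∧ V.Normal ∧ V < U ∧
          ∀ W : Subgroup G, W.Normal → V ≤ W → W ≤ U → W = V ∨ W = U := by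
        refine ⟨hU, hVn, hVU, ?_⟩
        intro W hWn hVW hWU
        by_cases hWe : W = U
        · exact Or.inr hWe
        · exact Or.inl (hmax W hWn (lt_of_le_of_ne hWU hWe) hVW)
      have hUK : ⁅U, K⁆ ≤ V := by
        rw [Subgroup.commutator_le]
        intro a ha b hb
        exact ((hC b).1 (hKC hb)).2 U V hchief hUF a ha
      have hcV : Nat.card V ≤ m := by
        have := Cfsg.Agent.Helper6.card_lt_of_lt' hVU
        omega
      obtain ⟨n, hn⟩ := ih V hVn (hVU.le.trans hUF) hcV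
      refine ⟨n + 1, ?_⟩
      rw [iter_succ, eq_bot_iff, ← hn]
      exact iter_mono K n hUK
  obtain ⟨n, hn⟩ := star (Nat.card F) F hFn le_rfl le_rfl
  have hlcs : ∀ k, K.lowerCentralSeries (k + 1) ≤ iter K k F := by
    intro k
    induction k with
    | zero =>
      rw [iter_zero, Subgroup.lowerCentralSeries_succ, Subgroup.lowerCentralSeries_zero]
      exact hKK
    | succ k ih =>
      rw [Subgroup.lowerCentralSeries_succ, iter_succ']
      exact Subgroup.commutator_mono ih le_rfl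
  have hKnil : Group.IsNilpotent ↥K := by
    apply Subgroup.isNilpotent_of_lowerCentralSeries_eq_bot (n := n + 1)
    rw [eq_bot_iff, ← hn]
    exact hlcs n
  have hKFg : K ≤ Cfsg.fittingSubgroup G := le_sSup ⟨hKn, hKnil⟩
  have hKF : K ≤ F := by rw [hF]; exact le_inf hKFg (hKC.trans hCN)
  exact hDF (hDK.trans hKF)

theorem fitting_chief [Finite G] (hG : Group.IsSolvable G) (N : Subgroup G) [N.Normal] (g : G) :
    (g ∈ (Cfsg.fittingSubgroup ↥N).map N.subtype ↔ g ∈ N ∧ ∀ U V : Subgroup G,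
      (U.Normal ∧ V.Normal ∧ V < U ∧
        ∀ W : Subgroup G, W.Normal → V ≤ W → W ≤ U → W = V ∨ W = U) →
      ∀ u ∈ U, u * g * u⁻¹ * g⁻¹ ∈ V) ∧
    (g ∈ (Cfsg.fittingSubgroup ↥N).map N.subtype ↔ g ∈ N ∧ ∀ U V : Subgroup G,
      (U.Normal ∧ V.Normal ∧ V < U ∧
        ∀ W : Subgroup G, W.Normal → V ≤ W → W ≤ U → W = V ∨ W = U) →
      U ≤ (Cfsg.fittingSubgroup ↥N).map N.subtype → ∀ u ∈ U, u * g * u⁻¹ * g⁻¹ ∈ V) := by
  have hF : (Cfsg.fittingSubgroup ↥N).map N.subtype = Cfsg.fittingSubgroup G ⊓ N :=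
    fitting_map_subtype_eq N (Subgroup.Normal.isSubnormal inferInstance)
  rw [hF]
  constructor
  · constructor
    · intro hg
      obtain ⟨h1, h2⟩ := Subgroup.mem_inf.1 hg
      exact ⟨h2, fun U V hUV u hu =>
        fitting_centralizes_chief U V hUV.1 hUV.2.1 hUV.2.2.1 hUV.2.2.2 g h1 u hu⟩
    · rintro ⟨hgN, hall⟩
      exact Subgroup.mem_inf.2
        ⟨mem_fitting_of_centralizes hG N g hgN (fun U V hUV _ => hall U V hUV), hgN⟩
  · constructor
    · intro hg
      obtain ⟨h1, h2⟩ := Subgroup.mem_inf.1 hg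
      exact ⟨h2, fun U V hUV _ u hu =>
        fitting_centralizes_chief U V hUV.1 hUV.2.1 hUV.2.2.1 hUV.2.2.2 g h1 u hu⟩
    · rintro ⟨hgN, hall⟩
      exact Subgroup.mem_inf.2 ⟨mem_fitting_of_centralizes hG N g hgN hall, hgN⟩

end Cfsg.Agent.Helper3.ChiefFit
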