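import Mathlib

namespace Cfsg.Agent.Helper3

/-- the set normaliser of a singleton is the centraliser -/
theorem normalizer_singleton {G : Type*} [Group G] (w : G) :
    Subgroup.normalizer ({w} : Set G) = Subgroup.centralizer ({w} : Set G) := by
  ext g
  rw [Subgroup.mem_set_normalizer_iff, Subgroup.mem_centralizer_iff]
  constructor
  · intro h x hx
    rw [Set.mem_singleton_iff] at hx
    subst hx
    have h1 := (h x).mp rfl
    rw [Set.mem_singleton_iff] at h1
    calc x * g = (g * x * g⁻¹) * g := by rw [h1]
      _ = g * x := by group
  · intro h x
    have h1 : w * g = g * w := h w rfl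
    simp only [Set.mem_singleton_iff]
    constructor
    · rintro rfl
      rw [← h1]; group
    · intro h2
      calc x = g⁻¹ * (g * x * g⁻¹) * g := by group
        _ = g⁻¹ * w * g := by rw [h2]
        _ = g⁻¹ * (w * g) := by group
        _ = w := by rw [h1]; group

end Cfsg.Agent.Helper3
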