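import Mathlib
import Cfsg.Prelude.Def_Characters
import Cfsg.Prelude.Def_OddOrderLocal
import Cfsg.Agent.Helper3.NormSingle
import Cfsg.Agent.Lead.IndFun2

namespace Cfsg.Agent.Helper3

open scoped ComplexConjugate

/-- in a cyclic subgroup `W`, the elements killed by the order of a subgroup `A ≤ W` lie in `A` -/
theorem mem_of_pow_card_eq_one {G : Type*} [Group G] [Finite G] (W A : Subgroup G)
    (hW : IsCyclic ↥W) (hA : A ≤ W) (y : G) (hy : y ∈ W) (hpow : y ^ Nat.card A = 1) : y ∈ A := by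
  classical
  haveI : Fintype ↥W := Fintype.ofFinite _
  have hn0 : 0 < Nat.card A := Nat.card_pos
  have hle := IsCyclic.card_pow_eq_one_le (α := ↥W) hn0
  have hsub : (Finset.univ.filter (fun a : ↥W => (a : G) ∈ A)) ⊆
      (Finset.univ.filter (fun a : ↥W => a ^ Nat.card A = 1)) := by
    intro a ha
    simp only [Finset.mem_filter, Finset.mem_univ, true_and] at ha ⊢
    apply Subtype.ext
    have h1 : (⟨(a : G), ha⟩ : ↥A) ^ Nat.card A = 1 := pow_card_eq_one'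
    have h2 := congrArg (fun z : ↥A => (z : G)) h1
    beta_reduce at h2
    rw [Subgroup.coe_pow, Subgroup.coe_one] at h2
    rw [Subgroup.coe_pow, Subgroup.coe_one]
    exact h2
  have hcard : (Finset.univ.filter (fun a : ↥W => (a : G) ∈ A)).card = Nat.card A := by
    have e : {a : ↥W // (a : G) ∈ A} ≃ ↥A :=
      { toFun := fun a => ⟨(a.1 : G), a.2⟩
        invFun := fun a => ⟨⟨(a : G), hA a.2⟩, a.2⟩
        left_inv := fun a => rfl
        right_inv := fun a => rfl }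
    rw [← Fintype.card_subtype, ← Nat.card_eq_fintype_card]
    exact Nat.card_congr e
  have heq := Finset.eq_of_subset_of_card_le hsub (by rw [hcard]; exact hle)
  have hmem : (⟨y, hy⟩ : ↥W) ∈ Finset.univ.filter (fun a : ↥W => a ^ Nat.card A = 1) := by
    simp only [Finset.mem_filter, Finset.mem_univ, true_and]
    apply Subtype.ext
    simpa using hpow
  rw [← heq] at hmem
  simpa using hmem

/-- the elements of `W` outside `W₁ ∪ W₂` form a TI-set with normaliser `W` -/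
theorem ti_of_selfNormalizing {G : Type*} [Group G] [Finite G] {W₁ W₂ : Subgroup G}
    (hW : Cfsg.IsSelfNormalizingCyclic W₁ W₂) (w : G) (hw : w ∈ W₁ ⊔ W₂) (hw1 : w ∉ W₁)
    (hw2 : w ∉ W₂) (x : G) (hx : x⁻¹ * w * x ∈ W₁ ⊔ W₂) (hx1 : x⁻¹ * w * x ∉ W₁)
    (hx2 : x⁻¹ * w * x ∉ W₂) : x ∈ W₁ ⊔ W₂ := by
  obtain ⟨hW1, hW2, hdisj, hcomm, hcyc, hnorm⟩ := hW
  have hcent : ∀ y : G, y ∈ W₁ ⊔ W₂ → y ∉ W₁ → y ∉ W₂ →
      Subgroup.centralizer ({y} : Set G) = W₁ ⊔ W₂ := by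
    intro y hy hy1 hy2
    rw [← normalizer_singleton]
    apply hnorm
    · intro z hz
      rw [Set.mem_singleton_iff] at hz; subst hz
      exact ⟨hy, fun h => h.elim hy1 hy2⟩
    · exact Set.singleton_nonempty _
  have hc1 := hcent w hw hw1 hw2
  have hc2 := hcent _ hx hx1 hx2
  -- x normalises W
  have hn1 : ∀ y ∈ W₁ ⊔ W₂, x * y * x⁻¹ ∈ W₁ ⊔ W₂ := by
    intro y hy
    rw [← hc2] at hy
    rw [← hc1]
    rw [Subgroup.mem_centralizer_iff] at hy ⊢
    intro z hz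
    rw [Set.mem_singleton_iff] at hz; subst hz
    have h1 := hy (x⁻¹ * z * x) rfl
    calc z * (x * y * x⁻¹) = x * ((x⁻¹ * z * x) * y) * x⁻¹ := by group
      _ = x * (y * (x⁻¹ * z * x)) * x⁻¹ := by rw [h1]
      _ = x * y * x⁻¹ * z := by group
  have hn2 : ∀ y ∈ W₁ ⊔ W₂, x⁻¹ * y * x ∈ W₁ ⊔ W₂ := by
    intro y hy
    rw [← hc1] at hy
    rw [← hc2]
    rw [Subgroup.mem_centralizer_iff] at hy ⊢
    intro z hz
    rw [Set.mem_singleton_iff] at hz; subst hz
    have h1 := hy w rfl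
    calc x⁻¹ * w * x * (x⁻¹ * y * x) = x⁻¹ * (w * y) * x := by group
      _ = x⁻¹ * (y * w) * x := by rw [h1]
      _ = x⁻¹ * y * x * (x⁻¹ * w * x) := by group
  have hsub : ∀ (A : Subgroup G), A ≤ W₁ ⊔ W₂ → ∀ y ∈ W₁ ⊔ W₂, (y ∈ A ↔ x * y * x⁻¹ ∈ A) := by
    intro A hA y hy
    constructor
    · intro hyA
      apply mem_of_pow_card_eq_one (W₁ ⊔ W₂) A hcyc hA _ (hn1 y hy)
      have h1 : (⟨y, hyA⟩ : ↥A) ^ Nat.card A = 1 := pow_card_eq_one'
      have h2 := congrArg (fun z : ↥A => (z : G)) h1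
      beta_reduce at h2
      rw [Subgroup.coe_pow, Subgroup.coe_one] at h2
      rw [conj_pow, h2]; group
    · intro hyA
      have h3 : y = x⁻¹ * (x * y * x⁻¹) * x := by group
      rw [h3]
      apply mem_of_pow_card_eq_one (W₁ ⊔ W₂) A hcyc hA _ (hn2 _ (hn1 y hy))
      have h1 : (⟨x * y * x⁻¹, hyA⟩ : ↥A) ^ Nat.card A = 1 := pow_card_eq_one'
      have h2 := congrArg (fun z : ↥A => (z : G)) h1
      beta_reduce at h2
      rw [Subgroup.coe_pow, Subgroup.coe_one] at h2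
      have h4 : x⁻¹ * (x * y * x⁻¹) * x = x⁻¹ * (x * y * x⁻¹) * x⁻¹⁻¹ := by group
      rw [h4, conj_pow, h2]; group
  have hmemN : x ∈ Subgroup.normalizer ((↑(W₁ ⊔ W₂) : Set G) \ (↑W₁ ∪ ↑W₂)) := by
    rw [Subgroup.mem_set_normalizer_iff]
    intro y
    constructor
    · rintro ⟨hy, hy'⟩
      refine ⟨hn1 y hy, ?_⟩
      rintro (h | h)
      · exact hy' (Or.inl ((hsub W₁ le_sup_left y hy).mpr h))
      · exact hy' (Or.inr ((hsub W₂ le_sup_right y hy).mpr h))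
    · rintro ⟨hy, hy'⟩
      have hyW : y ∈ W₁ ⊔ W₂ := by
        have h3 : y = x⁻¹ * (x * y * x⁻¹) * x := by group
        rw [h3]; exact hn2 _ hy
      refine ⟨hyW, ?_⟩
      rintro (h | h)
      · exact hy' (Or.inl ((hsub W₁ le_sup_left y hyW).mp h))
      · exact hy' (Or.inr ((hsub W₂ le_sup_right y hyW).mp h))
  rw [hnorm _ (le_refl _) ⟨w, hw, fun h => h.elim hw1 hw2⟩] at hmemN
  exact hmemN

/-- a function on `W` vanishing on `W₁ ∪ W₂` is not changed on the rest of `W` by induction -/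
theorem indFun_eq_of_selfNormalizing {G : Type*} [Group G] [Fintype G] {W₁ W₂ : Subgroup G}
    (hW : Cfsg.IsSelfNormalizingCyclic W₁ W₂) (α : ↥(W₁ ⊔ W₂) → ℂ)
    (hα : ∀ w : ↥(W₁ ⊔ W₂), ((w : G) ∈ W₁ ∨ (w : G) ∈ W₂) → α w = 0)
    (w : ↥(W₁ ⊔ W₂)) (hw1 : (w : G) ∉ W₁) (hw2 : (w : G) ∉ W₂) :
    Cfsg.indFun (W₁ ⊔ W₂) α w = α w := by
  classical
  have hcent : Subgroup.centralizer ({(w : G)} : Set G) = W₁ ⊔ W₂ := by
    rw [← normalizer_singleton]
    apply hW.2.2.2.2.2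
    · intro z hz
      rw [Set.mem_singleton_iff] at hz; subst hz
      exact ⟨w.2, fun h => h.elim hw1 hw2⟩
    · exact Set.singleton_nonempty _
  rw [Lead.indFun_apply]
  have hterm : ∀ x : G, Cfsg.extendByZero (W₁ ⊔ W₂) α (x⁻¹ * (w : G) * x)
      = Cfsg.extendByZero (W₁ ⊔ W₂) (fun _ => α w) x := by
    intro x
    by_cases hx : x ∈ W₁ ⊔ W₂
    · rw [Lead.extendByZero_mem _ _ hx]
      have hcomm : x⁻¹ * (w : G) * x = w := by
        rw [← hcent, Subgroup.mem_centralizer_iff] at hx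
        have := hx w rfl
        rw [mul_assoc, this]; group
      have hm : x⁻¹ * (w : G) * x ∈ W₁ ⊔ W₂ := by rw [hcomm]; exact w.2
      rw [Lead.extendByZero_mem _ _ hm]
      congr 1
      exact Subtype.ext hcomm
    · rw [Lead.extendByZero_not_mem _ _ hx]
      by_cases hm : x⁻¹ * (w : G) * x ∈ W₁ ⊔ W₂
      · rw [Lead.extendByZero_mem _ _ hm]
        by_cases h1 : x⁻¹ * (w : G) * x ∈ W₁
        · exact hα _ (Or.inl h1)
        by_cases h2 : x⁻¹ * (w : G) * x ∈ W₂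
        · exact hα _ (Or.inr h2)
        exact absurd (ti_of_selfNormalizing hW w w.2 hw1 hw2 x hm h1 h2) hx
      · exact Lead.extendByZero_not_mem _ _ hm
  rw [Finset.sum_congr rfl (fun x _ => hterm x), Lead.sum_extendByZero]
  rw [Finset.sum_const, Finset.card_univ, nsmul_eq_mul, ← Nat.card_eq_fintype_card]
  have hc : (Nat.card ↥(W₁ ⊔ W₂) : ℂ) ≠ 0 := Lead.natCard_ne_zero_complex _
  field_simp

/-- two linear characters of `W₁ ⊔ W₂` agreeing on `W₁` and on `W₂` are equal -/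
theorem hom_ext_sup {G : Type*} [Group G] (W₁ W₂ : Subgroup G)
    (φ φ' : ↥(W₁ ⊔ W₂) →* ℂˣ)
    (h1 : ∀ w : ↥(W₁ ⊔ W₂), (w : G) ∈ W₁ → φ w = φ' w)
    (h2 : ∀ w : ↥(W₁ ⊔ W₂), (w : G) ∈ W₂ → φ w = φ' w) : φ = φ' := by
  have hle : W₁ ⊔ W₂ ≤ (φ.eqLocus φ').map (W₁ ⊔ W₂).subtype := by
    apply sup_le
    · intro a ha
      exact ⟨⟨a, Subgroup.mem_sup_left ha⟩, h1 _ ha, rfl⟩
    · intro a ha
      exact ⟨⟨a, Subgroup.mem_sup_right ha⟩, h2 _ ha, rfl⟩
  apply MonoidHom.ext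
  intro w
  obtain ⟨w', hw', hww⟩ := hle w.2
  have : w' = w := Subtype.ext hww
  rw [← this]
  exact hw'

/-- orthogonality of the linear characters of a finite group -/
theorem classInner_linChar {W : Type*} [Group W] [Fintype W] (ω ω' : W →* ℂˣ)
    [Decidable (ω = ω')] :
    Cfsg.classInner (fun w => (ω w : ℂ)) (fun w => (ω' w : ℂ)) = if ω = ω' then 1 else 0 := by
  unfold Cfsg.classInner
  have hc : (Nat.card W : ℂ) ≠ 0 := Lead.natCard_ne_zero_complex _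
  have hconj : ∀ w : W, (ω w : ℂ) * conj (ω' w : ℂ) = (((ω * ω'⁻¹) w : ℂˣ) : ℂ) := by
    intro w
    have hpow : (ω' w : ℂ) ^ orderOf w = 1 := by
      rw [← Units.val_pow_eq_pow_val, ← map_pow, pow_orderOf_eq_one, map_one, Units.val_one]
    have hn : ‖(ω' w : ℂ)‖ = 1 := Complex.norm_eq_one_of_pow_eq_one hpow (orderOf_pos w).ne'
    rw [← Complex.inv_eq_conj hn]
    simp
  rw [Finset.sum_congr rfl (fun w _ => hconj w)]
  by_cases h : ω = ω'
  · rw [if_pos h]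
    have h1 : ∀ w : W, (((ω * ω'⁻¹) w : ℂˣ) : ℂ) = 1 := by
      intro w
      rw [h, MonoidHom.mul_apply, MonoidHom.inv_apply, mul_inv_cancel, Units.val_one]
    rw [Finset.sum_congr rfl (fun w _ => h1 w), Finset.sum_const, Finset.card_univ, nsmul_eq_mul,
      mul_one, ← Nat.card_eq_fintype_card]
    field_simp
  · rw [if_neg h]
    have hne : (Units.coeHom ℂ).comp (ω * ω'⁻¹) ≠ 1 := by
      intro h1
      apply h
      apply MonoidHom.ext
      intro w
      have h2 := DFunLike.congr_fun h1 w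
      simp only [MonoidHom.coe_comp, Function.comp_apply, MonoidHom.mul_apply,
        MonoidHom.inv_apply, Units.coeHom_apply, MonoidHom.one_apply] at h2
      have h3 : ω w * (ω' w)⁻¹ = 1 := Units.ext h2
      exact mul_inv_eq_one.mp h3
    have h0 := sum_hom_units_eq_zero _ hne
    have h1 : ∑ w : W, (((ω * ω'⁻¹) w : ℂˣ) : ℂ) = 0 := h0
    rw [h1, mul_zero]

end Cfsg.Agent.Helper3
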