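import Mathlib
import Cfsg.Agent.Helper3.CyclicTI

namespace Cfsg.Agent.Helper3

/-- a cyclic subgroup has at most one involution -/
theorem involution_unique_in_cyclic {G : Type*} [Group G] [Finite G] (W : Subgroup G)
    (hW : IsCyclic ↥W) {x x' : G} (hx : x ∈ W) (hx' : x' ∈ W) (ho : orderOf x = 2)
    (ho' : orderOf x' = 2) : x = x' := by
  have hA : Subgroup.zpowers x ≤ W := Subgroup.zpowers_le.mpr hx
  have hcard : Nat.card (Subgroup.zpowers x) = 2 := by rw [Nat.card_zpowers, ho]
  have hpow : x' ^ Nat.card (Subgroup.zpowers x) = 1 := by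
    rw [hcard, ← ho']; exact pow_orderOf_eq_one x'
  have hmem := mem_of_pow_card_eq_one W (Subgroup.zpowers x) hW hA x' hx' hpow
  obtain ⟨k, hk⟩ := Subgroup.mem_zpowers_iff.mp hmem
  have h1 : x ^ k = x ^ (k % (orderOf x : ℤ)) := (zpow_mod_orderOf x k).symm
  rw [ho] at h1
  have h2 : k % ((2 : ℕ) : ℤ) = 0 ∨ k % ((2 : ℕ) : ℤ) = 1 := by omega
  rcases h2 with h2 | h2
  · rw [h2, zpow_zero] at h1
    rw [h1] at hk
    rw [← hk, orderOf_one] at ho'
    exact absurd ho' (by norm_num)
  · rw [h2, zpow_one] at h1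
    rw [← hk, h1]

/-- a nontrivial element of 2-power order has an involution among its powers -/
theorem exists_involution_zpowers {G : Type*} [Group G] {b : G} (hb : b ≠ 1) (k : ℕ)
    (hk : orderOf b = 2 ^ k) : ∃ t ∈ Subgroup.zpowers b, orderOf t = 2 := by
  have hk1 : 1 ≤ k := by
    by_contra h
    have h0 : k = 0 := by omega
    rw [h0, pow_zero, orderOf_eq_one_iff] at hk
    exact hb hk
  refine ⟨b ^ (2 ^ (k - 1)), Subgroup.pow_mem _ (Subgroup.mem_zpowers b) _, ?_⟩
  rw [orderOf_pow_of_dvd (by positivity) (by rw [hk]; exact pow_dvd_pow 2 (by omega)), hk,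
    Nat.pow_div (by omega) (by norm_num)]
  have : k - (k - 1) = 1 := by omega
  rw [this, pow_one]

end Cfsg.Agent.Helper3
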