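import Mathlib
import Cfsg.Prelude.Def_Local
import Cfsg.Agent.Helper4.HH123
import Cfsg.Agent.Helper3.PLength
import Cfsg.Agent.Helper3.SchurZ
import Cfsg.Agent.Helper3.CoprimeGen
import Cfsg.Agent.Helper5.Sidki
import Cfsg.Agent.S0144

/-! Groups of exponent dividing 6 have 2-length and 3-length at most one. -/

set_option autoImplicit false

universe u

namespace Cfsg.Agent.Helper3.Exp6

open Cfsg

/-- A finite solvable group is `p`-solvable. -/
theorem isPSolvable_of_solvable (p : ℕ) [Fact p.Prime] :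
    ∀ (n : ℕ) (G : Type u) [Group G] [Finite G], Nat.card G = n → Group.IsSolvable G →
      IsPSolvable p G := by
  have hp : p.Prime := Fact.out
  intro n
  induction n using Nat.strong_induction_on with
  | _ n ih =>
    intro G _ _ hn hsol
    by_cases htriv : Subsingleton G
    · exact ⟨0, fun _ => ⊥, rfl, Subsingleton.elim _ _, fun _ _ _ => le_rfl,
        fun _ => inferInstance, fun i => i.elim0⟩
    · haveI : Nontrivial G := not_subsingleton_iff_nontrivial.mp htriv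
      obtain ⟨r, hr, U, hUn, hUne, hUr⟩ := Helper3.exists_normal_pgroup_of_solvable G
      haveI := hUn
      haveI : Fact r.Prime := ⟨hr⟩
      have hcard : Nat.card (G ⧸ U) < n := by
        have h1 : 1 < Nat.card U := (Subgroup.one_lt_card_iff_ne_bot U).mpr hUne
        have h2 := Subgroup.card_mul_index U
        have h3 : 0 < U.index := Nat.pos_of_ne_zero Subgroup.index_ne_zero_of_finite
        have h4 : U.index = Nat.card (G ⧸ U) := rfl
        rw [← hn, ← h2, ← h4]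
        exact lt_mul_of_one_lt_left h3 h1
      obtain ⟨m, H, h0, hlast, hmono, hnorm, hfac⟩ := ih _ hcard (G ⧸ U) rfl inferInstance
      obtain ⟨H', hH'⟩ : ∃ H' : Fin (m + 1 + 1) → Subgroup G,
          H' = Fin.cons ⊥ (fun i => (H i).comap (QuotientGroup.mk' U)) := ⟨_, rfl⟩
      have hz : H' 0 = ⊥ := by rw [hH']; rfl
      have hs : ∀ i : Fin (m + 1), H' i.succ = (H i).comap (QuotientGroup.mk' U) := by
        intro i
        rw [hH', Fin.cons_succ]
      refine ⟨m + 1, H', hz, ?_, ?_, ?_, ?_⟩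
      · rw [← Fin.succ_last, hs, hlast, Subgroup.comap_top]
      · intro i j hij
        rcases Fin.eq_zero_or_eq_succ i with rfl | ⟨i', rfl⟩
        · rw [hz]; exact bot_le
        · rcases Fin.eq_zero_or_eq_succ j with rfl | ⟨j', rfl⟩
          · exact absurd hij (by simp)
          · rw [hs, hs]
            exact Subgroup.comap_mono (hmono (Fin.succ_le_succ_iff.mp hij))
      · intro i
        rcases Fin.eq_zero_or_eq_succ i with rfl | ⟨i', rfl⟩
        · rw [hz]; infer_instance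
        · rw [hs]; exact (hnorm i').comap _
      · intro i
        rcases Fin.eq_zero_or_eq_succ i with rfl | ⟨i', rfl⟩
        · have e1 : H' (Fin.castSucc 0) = ⊥ := by rw [Fin.castSucc_zero]; exact hz
          have e2 : H' (Fin.succ 0) = U := by
            rw [hs, h0, MonoidHom.comap_bot, QuotientGroup.ker_mk']
          rw [e1, e2, Subgroup.relIndex_bot_left]
          obtain ⟨k, hk⟩ := IsPGroup.iff_card.mp hUr
          by_cases hrp : r = p
          · left; exact ⟨k, by rw [hk, hrp]⟩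
          · right; rw [hk]; exact Nat.Coprime.pow_left k ((Nat.coprime_primes hr hp).mpr hrp)
        · have e1 : H' (Fin.castSucc i'.succ) = (H i'.castSucc).comap (QuotientGroup.mk' U) := by
            rw [← Fin.succ_castSucc, hs]
          rw [e1, hs, Subgroup.relIndex_comap,
            Subgroup.map_comap_eq_self_of_surjective (QuotientGroup.mk'_surjective U)]
          exact hfac i'

theorem pow_two_of_mem {X : Type*} [Group X] (h6 : ∀ x : X, x ^ 6 = 1) (P : Subgroup X)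
    (hP : IsPGroup 2 P) {v : X} (hv : v ∈ P) : v ^ 2 = 1 := by
  obtain ⟨k, hk⟩ := hP ⟨v, hv⟩
  have hk' : v ^ 2 ^ k = 1 := by simpa using congrArg Subtype.val hk
  have h1 : orderOf v ∣ 2 ^ k := orderOf_dvd_of_pow_eq_one hk'
  have h2 : orderOf v ∣ 2 * 3 := orderOf_dvd_of_pow_eq_one (h6 v)
  have h3 : Nat.Coprime (orderOf v) 3 :=
    Nat.Coprime.coprime_dvd_left h1 (Nat.Coprime.pow_left k (by norm_num))
  exact orderOf_dvd_iff_pow_eq_one.mp (h3.dvd_of_dvd_mul_right h2)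

theorem pow_three_of_mem {X : Type*} [Group X] (h6 : ∀ x : X, x ^ 6 = 1) (P : Subgroup X)
    (hP : IsPGroup 3 P) {v : X} (hv : v ∈ P) : v ^ 3 = 1 := by
  obtain ⟨k, hk⟩ := hP ⟨v, hv⟩
  have hk' : v ^ 3 ^ k = 1 := by simpa using congrArg Subtype.val hk
  have h1 : orderOf v ∣ 3 ^ k := orderOf_dvd_of_pow_eq_one hk'
  have h2 : orderOf v ∣ 2 * 3 := orderOf_dvd_of_pow_eq_one (h6 v)
  have h3 : Nat.Coprime (orderOf v) 2 :=
    Nat.Coprime.coprime_dvd_left h1 (Nat.Coprime.pow_left k (by norm_num))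
  exact orderOf_dvd_iff_pow_eq_one.mp (h3.dvd_of_dvd_mul_left h2)

theorem eq_one_of_pow23 {X : Type*} [Group X] {x : X} (h2 : x ^ 2 = 1) (h3 : x ^ 3 = 1) :
    x = 1 := by
  have h : x ^ 3 = x ^ 2 * x := pow_succ x 2
  rw [h2, one_mul] at h
  rw [← h, h3]

theorem comm_of_sq {X : Type*} [Group X] {a b : X} (ha : a * a = 1) (hb : b * b = 1)
    (hab : (a * b) * (a * b) = 1) : a * b = b * a := by
  have h1 : a * b = (a * b)⁻¹ := eq_inv_of_mul_eq_one_left hab
  rw [mul_inv_rev, inv_eq_of_mul_eq_one_left ha, inv_eq_of_mul_eq_one_left hb] at h1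
  exact h1

theorem plength_one_of_index {G : Type u} [Group G] [Finite G] (p : ℕ) [Fact p.Prime]
    (h : ¬ p ∣ (pCore p (G ⧸ (upperPSeries p G 1).1)).index) : PLengthLE p 1 G := by
  have hp : p.Prime := Fact.out
  show (upperPSeries p G 3).1 = ⊤
  rw [Helper3.upperPSeries_three]
  have h2 : ((upperPSeries p G 2).1).index = (pCore p (G ⧸ (upperPSeries p G 1).1)).index := by
    rw [Helper3.upperPSeries_two]
    exact Subgroup.index_comap_of_surjective _ (QuotientGroup.mk'_surjective _)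
  have h3 : pPrimeCore p (G ⧸ (upperPSeries p G 2).1) = ⊤ := by
    rw [eq_top_iff]
    apply Helper5.le_pPrimeCore ⊤ inferInstance
    rw [Subgroup.card_top]
    have h4 : Nat.card (G ⧸ (upperPSeries p G 2).1) = ((upperPSeries p G 2).1).index := rfl
    rw [h4, h2, Nat.coprime_comm]
    exact (Nat.Prime.coprime_iff_not_dvd hp).mpr h
  rw [h3, Subgroup.comap_top]

theorem core2 {X : Type u} [Group X] [Finite X] (h6 : ∀ x : X, x ^ 6 = 1)
    (hC : Subgroup.centralizer (pCore 2 X : Set X) ≤ pCore 2 X) :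
    ¬ 2 ∣ (pCore 2 X).index := by
  intro hdvd
  haveI : Fact (Nat.Prime 2) := ⟨Nat.prime_two⟩
  haveI hPn : (pCore 2 X).Normal := Helper5.pCore_normal 2 X
  have hPp : IsPGroup 2 (pCore 2 X) := Helper5.pCore_isPGroup
  have hdvd' : 2 ∣ Nat.card (X ⧸ pCore 2 X) := hdvd
  obtain ⟨ξ, hξ⟩ := exists_prime_orderOf_dvd_card' 2 hdvd'
  obtain ⟨y₀, rfl⟩ := QuotientGroup.mk'_surjective (pCore 2 X) ξ
  have hy2 : (y₀ ^ 3) ^ 2 = 1 := by rw [← pow_mul]; exact h6 y₀
  have hyy : y₀ ^ 3 * y₀ ^ 3 = 1 := by rw [← pow_two]; exact hy2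
  have hyc : y₀ ^ 3 ∈ Subgroup.centralizer (pCore 2 X : Set X) := by
    rw [Subgroup.mem_centralizer_iff]
    intro v hv
    have hv2 : v * v = 1 := by rw [← pow_two]; exact pow_two_of_mem h6 _ hPp hv
    have hyi : (y₀ ^ 3)⁻¹ = y₀ ^ 3 := inv_eq_of_mul_eq_one_left hyy
    have ht : (v * y₀ ^ 3) ^ 2 ∈ pCore 2 X := by
      have e : (v * y₀ ^ 3) ^ 2 = v * (y₀ ^ 3 * v * (y₀ ^ 3)⁻¹) := by
        rw [hyi, pow_two]; group
      rw [e]
      exact Subgroup.mul_mem _ hv (hPn.conj_mem v hv _)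
    have ht2 : ((v * y₀ ^ 3) ^ 2) ^ 2 = 1 := pow_two_of_mem h6 _ hPp ht
    have h4 : (v * y₀ ^ 3) ^ 4 = 1 := by rw [← pow_mul] at ht2; exact ht2
    have h2 : (v * y₀ ^ 3) ^ 2 = 1 := by
      have h := h6 (v * y₀ ^ 3)
      rw [show 6 = 4 + 2 from rfl, pow_add, h4, one_mul] at h
      exact h
    exact comm_of_sq hv2 hyy (by rw [← pow_two]; exact h2)
  have hyP : y₀ ^ 3 ∈ pCore 2 X := hC hyc
  have h1 : ((QuotientGroup.mk' (pCore 2 X)) y₀) ^ 3 = 1 := by
    rw [← map_pow]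
    exact (QuotientGroup.eq_one_iff _).mpr hyP
  have h2 : ((QuotientGroup.mk' (pCore 2 X)) y₀) ^ 2 = 1 := by
    have h := pow_orderOf_eq_one ((QuotientGroup.mk' (pCore 2 X)) y₀)
    rw [hξ] at h
    exact h
  have h3 := eq_one_of_pow23 h2 h1
  rw [h3, orderOf_one] at hξ
  exact absurd hξ (by norm_num)

theorem pure3 {X : Type*} [Group X] (w W1 W2 : X) (h1 : w * W1 * W2 = 1)
    (h2 : w * W1⁻¹ * W2⁻¹ = 1) (hc1 : W1 ^ 3 = 1) (hc2 : W2 ^ 3 = 1) : w = 1 := by
  have e1 : w = (W1 * W2)⁻¹ := eq_inv_of_mul_eq_one_left (by rw [← mul_assoc]; exact h1)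
  have e2 : w = (W1⁻¹ * W2⁻¹)⁻¹ := eq_inv_of_mul_eq_one_left (by rw [← mul_assoc]; exact h2)
  have e3 : W1 * W2 = W1⁻¹ * W2⁻¹ := inv_injective (e1.symm.trans e2)
  have i1 : W1⁻¹ = W1 * W1 := by
    apply inv_eq_of_mul_eq_one_left
    rw [← hc1, pow_succ, pow_two]
  have i2 : W2⁻¹ = W2 * W2 := by
    apply inv_eq_of_mul_eq_one_left
    rw [← hc2, pow_succ, pow_two]
  have e4 : W1 * W1 * W2 * W2 = 1 := by
    calc W1 * W1 * W2 * W2 = W1 * (W1 * W2) * W2 := by group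
      _ = W1 * (W1⁻¹ * W2⁻¹) * W2 := by rw [e3]
      _ = 1 := by group
  have e5 : W1⁻¹ * W2⁻¹ = 1 := by
    calc W1⁻¹ * W2⁻¹ = (W1 * W1) * (W2 * W2) := by rw [← i1, ← i2]
      _ = W1 * W1 * W2 * W2 := by group
      _ = 1 := e4
  rw [e2, e5, inv_one]

theorem key_algebra {X : Type*} [Group X] (x d e f w : X) (hxd : x * d * x⁻¹ = e)
    (hxf : x * f * x⁻¹ = d) (hew : e * w * e⁻¹ = w) (hdw : d * w * d⁻¹ = w⁻¹)
    (hfw : f * w * f⁻¹ = w⁻¹)
    (h1 : w * (x * w * x⁻¹) * (x * (x * w * x⁻¹) * x⁻¹) = 1)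
    (hc1 : (x * w * x⁻¹) ^ 3 = 1) (hc2 : (x * (x * w * x⁻¹) * x⁻¹) ^ 3 = 1) : w = 1 := by
  have a1 : e * (x * w * x⁻¹) * e⁻¹ = (x * w * x⁻¹)⁻¹ := by
    rw [← hxd]
    calc x * d * x⁻¹ * (x * w * x⁻¹) * (x * d * x⁻¹)⁻¹ = x * (d * w * d⁻¹) * x⁻¹ := by group
      _ = (x * w * x⁻¹)⁻¹ := by rw [hdw]; group
  have a2 : e * (x * (x * w * x⁻¹) * x⁻¹) * e⁻¹ = (x * (x * w * x⁻¹) * x⁻¹)⁻¹ := by
    have he : e = x * (x * f * x⁻¹) * x⁻¹ := by rw [hxf, hxd]
    rw [he]
    calc x * (x * f * x⁻¹) * x⁻¹ * (x * (x * w * x⁻¹) * x⁻¹) * (x * (x * f * x⁻¹) * x⁻¹)⁻¹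
        = x * (x * (f * w * f⁻¹) * x⁻¹) * x⁻¹ := by group
      _ = (x * (x * w * x⁻¹) * x⁻¹)⁻¹ := by
          rw [hfw]; simp only [mul_inv_rev, inv_inv, mul_assoc]
  have h2 : w * (x * w * x⁻¹)⁻¹ * (x * (x * w * x⁻¹) * x⁻¹)⁻¹ = 1 := by
    calc w * (x * w * x⁻¹)⁻¹ * (x * (x * w * x⁻¹) * x⁻¹)⁻¹
        = (e * w * e⁻¹) * (e * (x * w * x⁻¹) * e⁻¹) * (e * (x * (x * w * x⁻¹) * x⁻¹) * e⁻¹) := by
          rw [hew, a1, a2]
      _ = e * (w * (x * w * x⁻¹) * (x * (x * w * x⁻¹) * x⁻¹)) * e⁻¹ := by group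
      _ = 1 := by rw [h1]; group
  exact pure3 w _ _ h1 h2 hc1 hc2

theorem a4_step {X : Type*} [Group X] (P : Subgroup X) [hPn : P.Normal]
    (hP3 : ∀ v ∈ P, v ^ 3 = 1) (x d e f u : X)
    (hstar : ∀ v ∈ P, v * (x * v * x⁻¹) * (x * (x * v * x⁻¹) * x⁻¹) = 1)
    (hxd : x * d * x⁻¹ = e) (hxf : x * f * x⁻¹ = d) (hf : f = d * e) (hd2 : d * d = 1)
    (hde : d * e = e * d) (hu : u ∈ P) (heu : e * u = u * e) : d * u = u * d := by
  have hdi : d⁻¹ = d := inv_eq_of_mul_eq_one_left hd2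
  obtain ⟨w, hw⟩ : ∃ w : X, w = u⁻¹ * (d * u * d⁻¹) := ⟨_, rfl⟩
  have hwP : w ∈ P := by
    rw [hw]
    exact P.mul_mem (P.inv_mem hu) (hPn.conj_mem u hu d)
  have c1 : e * u * e⁻¹ = u := by rw [heu]; group
  have c2 : e * d * e⁻¹ = d := by rw [← hde]; group
  have hew : e * w * e⁻¹ = w := by
    calc e * w * e⁻¹
        = (e * u * e⁻¹)⁻¹ * ((e * d * e⁻¹) * (e * u * e⁻¹) * (e * d * e⁻¹)⁻¹) := by
          rw [hw]; group
      _ = w := by rw [c1, c2, hw]
  have hdw : d * w * d⁻¹ = w⁻¹ := by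
    rw [hw]
    calc d * (u⁻¹ * (d * u * d⁻¹)) * d⁻¹ = d * u⁻¹ * d * u * (d * d)⁻¹ := by group
      _ = d * u⁻¹ * d * u := by rw [hd2, inv_one, mul_one]
      _ = d * u⁻¹ * d⁻¹ * u := by rw [hdi]
      _ = (u⁻¹ * (d * u * d⁻¹))⁻¹ := by group
  have hfw : f * w * f⁻¹ = w⁻¹ := by
    calc f * w * f⁻¹ = d * (e * w * e⁻¹) * d⁻¹ := by rw [hf]; group
      _ = w⁻¹ := by rw [hew, hdw]
  have hw1 : w = 1 := key_algebra x d e f w hxd hxf hew hdw hfw (hstar w hwP)
    (hP3 _ (hPn.conj_mem w hwP x)) (hP3 _ (hPn.conj_mem _ (hPn.conj_mem w hwP x) x))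
  have h5 : d * u * d⁻¹ = u := by
    rw [hw] at hw1
    exact (inv_mul_eq_one.mp hw1).symm
  calc d * u = (d * u * d⁻¹) * d := by group
    _ = u * d := by rw [h5]

theorem core3 {X : Type u} [Group X] [Finite X] (h6 : ∀ x : X, x ^ 6 = 1)
    (hsolv : Group.IsSolvable X)
    (hC : Subgroup.centralizer (pCore 3 X : Set X) ≤ pCore 3 X) :
    ¬ 3 ∣ (pCore 3 X).index := by
  intro hdvd
  haveI h2f : Fact (Nat.Prime 2) := ⟨Nat.prime_two⟩
  haveI h3f : Fact (Nat.Prime 3) := ⟨Nat.prime_three⟩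
  haveI hPn : (pCore 3 X).Normal := Helper5.pCore_normal 3 X
  have hPp : IsPGroup 3 (pCore 3 X) := Helper5.pCore_isPGroup
  have hP3 : ∀ v ∈ pCore 3 X, v ^ 3 = 1 := fun v hv => pow_three_of_mem h6 _ hPp hv
  have h6q : ∀ y : X ⧸ pCore 3 X, y ^ 6 = 1 := by
    intro y
    obtain ⟨g, rfl⟩ := QuotientGroup.mk_surjective y
    rw [← QuotientGroup.mk_pow, h6 g]; rfl
  have hsq : IsPSolvable 2 (X ⧸ pCore 3 X) :=
    isPSolvable_of_solvable 2 _ (X ⧸ pCore 3 X) rfl inferInstance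
  have hO : pPrimeCore 2 (X ⧸ pCore 3 X) = ⊥ := by
    have h1 : IsPGroup 3 (pPrimeCore 2 (X ⧸ pCore 3 X)) := by
      rintro ⟨z, hz⟩
      refine ⟨1, Subtype.ext ?_⟩
      have hc := Helper5.pPrimeCore_coprime 2 (X ⧸ pCore 3 X)
      have ho : orderOf z ∣ Nat.card (pPrimeCore 2 (X ⧸ pCore 3 X)) := by
        have h := orderOf_dvd_natCard (⟨z, hz⟩ : pPrimeCore 2 (X ⧸ pCore 3 X))
        rwa [Subgroup.orderOf_mk] at h
      have h2 : orderOf z ∣ 2 * 3 := orderOf_dvd_of_pow_eq_one (h6q z)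
      have h3 : Nat.Coprime (orderOf z) 2 := Nat.Coprime.coprime_dvd_left ho hc
      have h4 := orderOf_dvd_iff_pow_eq_one.mp (h3.dvd_of_dvd_mul_left h2)
      simpa using h4
    have h2 := Helper5.le_pCore _ (Helper5.pPrimeCore_normal' 2 _) h1
    rw [Helper5.pCore_quot_pCore_eq_bot] at h2
    exact le_bot_iff.mp h2
  have hCq := Helper4.hh123 hsq hO
  haveI hQn : (pCore 2 (X ⧸ pCore 3 X)).Normal := Helper5.pCore_normal 2 _
  have hQp : IsPGroup 2 (pCore 2 (X ⧸ pCore 3 X)) := Helper5.pCore_isPGroup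
  have hQ2 : ∀ q ∈ pCore 2 (X ⧸ pCore 3 X), q ^ 2 = 1 :=
    fun q hq => pow_two_of_mem h6q _ hQp hq
  have hQcomm : ∀ s ∈ pCore 2 (X ⧸ pCore 3 X), ∀ t ∈ pCore 2 (X ⧸ pCore 3 X),
      s * t = t * s := by
    intro s hs t ht
    apply comm_of_sq
    · rw [← pow_two]; exact hQ2 s hs
    · rw [← pow_two]; exact hQ2 t ht
    · rw [← pow_two]; exact hQ2 _ (Subgroup.mul_mem _ hs ht)
  -- `K = O_{3,2}(X)` and a Sylow 2-subgroup of it
  obtain ⟨K, hK⟩ : ∃ K : Subgroup X,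
      K = (pCore 2 (X ⧸ pCore 3 X)).comap (QuotientGroup.mk' (pCore 3 X)) := ⟨_, rfl⟩
  haveI hKn : K.Normal := by rw [hK]; exact hQn.comap _
  have hKmem : ∀ y ∈ K, (QuotientGroup.mk' (pCore 3 X)) y ∈ pCore 2 (X ⧸ pCore 3 X) := by
    intro y hy
    rw [hK] at hy
    exact hy
  obtain ⟨T⟩ : Nonempty (Sylow 2 K) := inferInstance
  obtain ⟨T', hT'⟩ : ∃ T' : Subgroup X, T' = (T : Subgroup K).map K.subtype := ⟨_, rfl⟩
  have hfrat : Subgroup.normalizer (T' : Set X) ⊔ K = ⊤ := by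
    rw [hT']; exact Sylow.normalizer_sup_eq_top T
  have hT'p : IsPGroup 2 T' := by rw [hT']; exact T.2.map K.subtype
  have hT2 : ∀ t ∈ T', t ^ 2 = 1 := fun t ht => pow_two_of_mem h6 _ hT'p ht
  have hTcomm : ∀ s ∈ T', ∀ t ∈ T', s * t = t * s := by
    intro s hs t ht
    apply comm_of_sq
    · rw [← pow_two]; exact hT2 s hs
    · rw [← pow_two]; exact hT2 t ht
    · rw [← pow_two]; exact hT2 _ (T'.mul_mem hs ht)
  have hsurj : ∀ q ∈ pCore 2 (X ⧸ pCore 3 X),
      ∃ t ∈ T', (QuotientGroup.mk' (pCore 3 X)) t = q := by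
    intro q hq
    obtain ⟨k₀, rfl⟩ := QuotientGroup.mk'_surjective (pCore 3 X) q
    have hk₀K : k₀ ∈ K := by rw [hK]; exact hq
    have hkK : k₀ ^ 3 ∈ K := K.pow_mem hk₀K 3
    have hk2 : (k₀ ^ 3) ^ 2 = 1 := by rw [← pow_mul]; exact h6 k₀
    have hk2' : (⟨k₀ ^ 3, hkK⟩ : K) ^ 2 = 1 := Subtype.ext (by simpa using hk2)
    have hZ : IsPGroup 2 (Subgroup.zpowers (⟨k₀ ^ 3, hkK⟩ : K)) := by
      rintro ⟨z, hz⟩
      obtain ⟨i, rfl⟩ := Subgroup.mem_zpowers_iff.mp hz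
      refine ⟨1, Subtype.ext ?_⟩
      show ((⟨k₀ ^ 3, hkK⟩ : K) ^ i) ^ 2 ^ 1 = 1
      rw [pow_one, ← zpow_natCast, ← zpow_mul, mul_comm, zpow_mul, zpow_natCast, hk2', one_zpow]
    obtain ⟨S, hS⟩ := hZ.exists_le_sylow
    obtain ⟨g, hg⟩ := Helper5.sylow_conj S T
    have hmem : (MulAut.conj g) (⟨k₀ ^ 3, hkK⟩ : K) ∈ (T : Subgroup K) := by
      have h1 : (⟨k₀ ^ 3, hkK⟩ : K) ∈ (S : Subgroup K) := hS (Subgroup.mem_zpowers _)
      rw [hg]
      exact Subgroup.mem_map_of_mem _ h1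
    refine ⟨(g : X) * k₀ ^ 3 * (g : X)⁻¹, ?_, ?_⟩
    · rw [hT']
      exact ⟨_, hmem, by simp [MulAut.conj_apply]⟩
    · have hγ : (QuotientGroup.mk' (pCore 3 X)) (g : X) ∈ pCore 2 (X ⧸ pCore 3 X) :=
        hKmem _ g.2
      have hq3 : ((QuotientGroup.mk' (pCore 3 X)) k₀) ^ 3 = (QuotientGroup.mk' (pCore 3 X)) k₀ := by
        rw [pow_succ, hQ2 _ hq, one_mul]
      have hcomm := hQcomm _ hγ _ hq
      rw [map_mul, map_mul, map_pow, map_inv, hq3, hcomm, mul_inv_cancel_right]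
  -- an element of order 3 modulo `O_3(X)`
  have hdvd' : 3 ∣ Nat.card (X ⧸ pCore 3 X) := hdvd
  obtain ⟨ξ, hξ⟩ := exists_prime_orderOf_dvd_card' 3 hdvd'
  obtain ⟨x₁, rfl⟩ := QuotientGroup.mk'_surjective (pCore 3 X) ξ
  have hx₁ : x₁ ∈ Subgroup.normalizer (T' : Set X) ⊔ K := by rw [hfrat]; exact Subgroup.mem_top _
  obtain ⟨n, hn, k, hk, rfl⟩ := Subgroup.mem_sup_of_normal_right.mp hx₁
  obtain ⟨x, hxdef⟩ : ∃ x : X, x = n ^ 4 := ⟨_, rfl⟩
  have hxN : x ∈ Subgroup.normalizer (T' : Set X) := by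
    rw [hxdef]; exact Subgroup.pow_mem _ hn 4
  have hx3 : x ^ 3 = 1 := by
    rw [hxdef, ← pow_mul]
    show n ^ (6 * 2) = 1
    rw [pow_mul, h6, one_pow]
  have hxT : ∀ t ∈ T', x * t * x⁻¹ ∈ T' := fun t ht => (Subgroup.mem_normalizer_iff.mp hxN t).mp ht
  have hex : ∃ a ∈ T', x * a * x⁻¹ ≠ a := by
    by_contra hcon
    push Not at hcon
    have h1 : (QuotientGroup.mk' (pCore 3 X)) x ∈
        Subgroup.centralizer (pCore 2 (X ⧸ pCore 3 X) : Set (X ⧸ pCore 3 X)) := by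
      rw [Subgroup.mem_centralizer_iff]
      intro q hq
      obtain ⟨t, ht, rfl⟩ := hsurj q hq
      rw [← map_mul, ← map_mul]
      congr 1
      have h := hcon t ht
      calc t * x = (x * t * x⁻¹) * x := by rw [h]
        _ = x * t := by group
    have h2 := hCq h1
    have h3 : ((QuotientGroup.mk' (pCore 3 X)) x) ^ 2 = 1 := hQ2 _ h2
    have h4 : ((QuotientGroup.mk' (pCore 3 X)) x) ^ 3 = 1 := by rw [← map_pow, hx3, map_one]
    have h5 : (QuotientGroup.mk' (pCore 3 X)) x = 1 := eq_one_of_pow23 h3 h4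
    have h6' : ((QuotientGroup.mk' (pCore 3 X)) n) ^ 4 = 1 := by
      rw [← map_pow, ← hxdef]; exact h5
    have h7 : ((QuotientGroup.mk' (pCore 3 X)) n) ^ 2 = 1 := by
      have h := h6q ((QuotientGroup.mk' (pCore 3 X)) n)
      rw [show 6 = 4 + 2 from rfl, pow_add, h6', one_mul] at h
      exact h
    have hkq : (QuotientGroup.mk' (pCore 3 X)) k ∈ pCore 2 (X ⧸ pCore 3 X) := hKmem k hk
    have h8 : ((QuotientGroup.mk' (pCore 3 X)) (n * k)) ^ 2 ∈ pCore 2 (X ⧸ pCore 3 X) := by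
      rw [map_mul]
      have e : ((QuotientGroup.mk' (pCore 3 X)) n * (QuotientGroup.mk' (pCore 3 X)) k) ^ 2 =
          ((QuotientGroup.mk' (pCore 3 X)) n * (QuotientGroup.mk' (pCore 3 X)) k *
            ((QuotientGroup.mk' (pCore 3 X)) n)⁻¹) * ((QuotientGroup.mk' (pCore 3 X)) n) ^ 2 *
            (QuotientGroup.mk' (pCore 3 X)) k := by
        rw [pow_two, pow_two]; group
      rw [e, h7, mul_one]
      exact Subgroup.mul_mem _ (hQn.conj_mem _ hkq _) hkq
    have h9 : (((QuotientGroup.mk' (pCore 3 X)) (n * k)) ^ 2) ^ 2 = 1 := hQ2 _ h8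
    have h10 : orderOf ((QuotientGroup.mk' (pCore 3 X)) (n * k)) ∣ 4 :=
      orderOf_dvd_of_pow_eq_one (by rw [← pow_mul] at h9; exact h9)
    rw [hξ] at h10
    exact absurd h10 (by norm_num)
  obtain ⟨a, haT, hab⟩ := hex
  obtain ⟨b, hb⟩ : ∃ b : X, b = x * a * x⁻¹ := ⟨_, rfl⟩
  obtain ⟨c, hc⟩ : ∃ c : X, c = x * b * x⁻¹ := ⟨_, rfl⟩
  have hbT : b ∈ T' := by rw [hb]; exact hxT a haT
  have hcT : c ∈ T' := by rw [hc]; exact hxT b hbT
  have hxxx : x * x * x = 1 := by rw [← pow_two, ← pow_succ]; exact hx3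
  have hxi3 : x⁻¹ * x⁻¹ * x⁻¹ = 1 := by
    have h : (x * x * x)⁻¹ = 1 := by rw [hxxx, inv_one]
    rw [← h]; simp only [mul_inv_rev, mul_assoc]
  have hxc : x * c * x⁻¹ = a := by
    rw [hc, hb]
    calc x * (x * (x * a * x⁻¹) * x⁻¹) * x⁻¹ = (x * x * x) * a * (x⁻¹ * x⁻¹ * x⁻¹) := by
          simp only [mul_assoc]
      _ = a := by rw [hxxx, hxi3, one_mul, mul_one]
  have ha2 : a * a = 1 := by rw [← pow_two]; exact hT2 a haT
  have hb2 : b * b = 1 := by rw [← pow_two]; exact hT2 b hbT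
  have hc2 : c * c = 1 := by rw [← pow_two]; exact hT2 c hcT
  have hab' : a * b = b * a := hTcomm a haT b hbT
  have hca : c * a = a * c := hTcomm c hcT a haT
  have hdT : a * b ∈ T' := T'.mul_mem haT hbT
  have heT : b * c ∈ T' := T'.mul_mem hbT hcT
  have hfT : c * a ∈ T' := T'.mul_mem hcT haT
  have hd1 : a * b ≠ 1 := by
    intro h
    have h1 : b = a⁻¹ := eq_inv_of_mul_eq_one_right h
    rw [inv_eq_of_mul_eq_one_left ha2] at h1
    exact hab (hb.symm.trans h1)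
  have hxd : x * (a * b) * x⁻¹ = b * c := by
    calc x * (a * b) * x⁻¹ = (x * a * x⁻¹) * (x * b * x⁻¹) := by group
      _ = b * c := by rw [← hb, ← hc]
  have hxe : x * (b * c) * x⁻¹ = c * a := by
    calc x * (b * c) * x⁻¹ = (x * b * x⁻¹) * (x * c * x⁻¹) := by group
      _ = c * a := by rw [hxc, ← hc]
  have hxf : x * (c * a) * x⁻¹ = a * b := by
    calc x * (c * a) * x⁻¹ = (x * c * x⁻¹) * (x * a * x⁻¹) := by group
      _ = a * b := by rw [hxc, ← hb]
  have hf : c * a = (a * b) * (b * c) := by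
    calc c * a = a * c := hca
      _ = a * (b * b) * c := by rw [hb2, mul_one]
      _ = (a * b) * (b * c) := by group
  have hd' : a * b = (b * c) * (c * a) := by
    calc a * b = b * a := hab'
      _ = b * (c * c) * a := by rw [hc2, mul_one]
      _ = (b * c) * (c * a) := by group
  have hstar : ∀ v ∈ pCore 3 X, v * (x * v * x⁻¹) * (x * (x * v * x⁻¹) * x⁻¹) = 1 := by
    intro v hv
    have ht : v * (x * v * x⁻¹) * (x * (x * v * x⁻¹) * x⁻¹) ∈ pCore 3 X :=
      (pCore 3 X).mul_mem ((pCore 3 X).mul_mem hv (hPn.conj_mem v hv x))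
        (hPn.conj_mem _ (hPn.conj_mem v hv x) x)
    have h3 := hP3 _ ht
    have hpow : (v * x) ^ 3 = v * (x * v * x⁻¹) * (x * (x * v * x⁻¹) * x⁻¹) * x ^ 3 := by
      rw [pow_succ, pow_two, pow_succ, pow_two]; group
    rw [hx3, mul_one] at hpow
    have h2 : (v * (x * v * x⁻¹) * (x * (x * v * x⁻¹) * x⁻¹)) ^ 2 = 1 := by
      rw [← hpow, ← pow_mul]; exact h6 _
    exact eq_one_of_pow23 h2 h3
  -- `d = a * b` centralizes `O_3(X)`
  have hdcent : a * b ∈ Subgroup.centralizer (pCore 3 X : Set X) := by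
    have hEA : Cfsg.IsElementaryAbelian 2 T' :=
      ⟨⟨⟨fun s t => Subtype.ext (hTcomm s s.2 t t.2)⟩⟩, hT2⟩
    have hX : ¬ 2 ∣ Nat.card (pCore 3 X) := by
      obtain ⟨j, hj⟩ := IsPGroup.iff_card.mp hPp
      rw [hj]
      intro h
      have := Nat.Prime.dvd_of_dvd_pow Nat.prime_two h
      exact absurd this (by norm_num)
    have hAX : T' ≤ Subgroup.normalizer ((pCore 3 X : Subgroup X) : Set X) := by
      intro t _
      rw [Subgroup.mem_normalizer_iff]
      intro h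
      constructor
      · intro hh; exact hPn.conj_mem h hh t
      · intro hh
        have := hPn.conj_mem _ hh t⁻¹
        have e : t⁻¹ * (t * h * t⁻¹) * t⁻¹⁻¹ = h := by group
        rw [e] at this
        exact this
    have hgen := Helper3.generated_by_centralizers 2 T' (pCore 3 X) hEA hX hAX
    have hle : pCore 3 X ≤ Subgroup.centralizer ({a * b} : Set X) := by
      rw [hgen]
      apply iSup_le
      rintro ⟨B, hBT, hBrel⟩
      intro u hu
      have huP : u ∈ pCore 3 X := hu.1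
      have huB : ∀ h ∈ B, h * u = u * h := by
        intro h hh
        exact (Subgroup.mem_centralizer_iff.mp hu.2) h hh
      rw [Subgroup.mem_centralizer_iff]
      intro h hh
      rw [Set.mem_singleton_iff] at hh
      rw [hh]
      by_cases hdB : a * b ∈ B
      · exact huB _ hdB
      · by_cases heB : b * c ∈ B
        · exact a4_step (pCore 3 X) hP3 x (a * b) (b * c) (c * a) u hstar hxd hxf hf
            (by rw [← pow_two]; exact hT2 _ hdT) (hTcomm _ hdT _ heT) huP (huB _ heB)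
        · have hidx : (B.subgroupOf T').index = 2 := by
            have h1 : (B.subgroupOf T').index ≤ 2 := hBrel
            have h2 : (B.subgroupOf T').index ≠ 1 := by
              intro h
              rw [Subgroup.index_eq_one] at h
              have hm : (⟨a * b, hdT⟩ : T') ∈ B.subgroupOf T' := by rw [h]; exact Subgroup.mem_top _
              exact hdB (Subgroup.mem_subgroupOf.mp hm)
            have h3 : (B.subgroupOf T').index ≠ 0 := Subgroup.index_ne_zero_of_finite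
            omega
          have hm := (Subgroup.mul_mem_iff_of_index_two hidx (a := (⟨a * b, hdT⟩ : T'))
            (b := (⟨b * c, heT⟩ : T'))).mpr
            ⟨fun h => absurd (Subgroup.mem_subgroupOf.mp h) hdB,
             fun h => absurd (Subgroup.mem_subgroupOf.mp h) heB⟩
          have hfB : c * a ∈ B := by
            have := Subgroup.mem_subgroupOf.mp hm
            rw [hf]
            exact this
          have h1 : (b * c) * u = u * (b * c) :=
            a4_step (pCore 3 X) hP3 x (b * c) (c * a) (a * b) u hstar hxe hxd hd'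
              (by rw [← pow_two]; exact hT2 _ heT) (hTcomm _ heT _ hfT) huP (huB _ hfB)
          have h2 : (c * a) * u = u * (c * a) := huB _ hfB
          calc a * b * u = (b * c) * ((c * a) * u) := by rw [hd']; group
            _ = (b * c) * (u * (c * a)) := by rw [h2]
            _ = ((b * c) * u) * (c * a) := by group
            _ = (u * (b * c)) * (c * a) := by rw [h1]
            _ = u * (a * b) := by rw [mul_assoc, ← hd']
    rw [Subgroup.mem_centralizer_iff]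
    intro u hu
    have := Subgroup.mem_centralizer_iff.mp (hle hu) (a * b) rfl
    exact this.symm
  have hdP : a * b ∈ pCore 3 X := hC hdcent
  exact hd1 (eq_one_of_pow23 (hT2 _ hdT) (hP3 _ hdP))

theorem exp6_plength {G : Type u} [Group G] [Finite G] (h : ∀ x : G, x ^ 6 = 1) :
    PLengthLE 2 1 G ∧ PLengthLE 3 1 G := by
  haveI h2f : Fact (Nat.Prime 2) := ⟨Nat.prime_two⟩
  haveI h3f : Fact (Nat.Prime 3) := ⟨Nat.prime_three⟩
  haveI hsolv : Group.IsSolvable G := by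
    apply Cfsg.Agent.S0144.solvable_of_two_primes 2 3 Nat.prime_two Nat.prime_three
      (Nat.card G) G rfl
    intro r hr hdvd
    haveI : Fact r.Prime := ⟨hr⟩
    obtain ⟨g, hg⟩ := exists_prime_orderOf_dvd_card' r hdvd
    have h1 : r ∣ 2 * 3 := hg ▸ orderOf_dvd_of_pow_eq_one (h g)
    rcases (Nat.Prime.dvd_mul hr).mp h1 with h2 | h3
    · left; exact (Nat.prime_dvd_prime_iff_eq hr Nat.prime_two).mp h2
    · right; exact (Nat.prime_dvd_prime_iff_eq hr Nat.prime_three).mp h3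
  have key : ∀ p : ℕ, ∀ _ : Fact p.Prime,
      pPrimeCore p (G ⧸ (upperPSeries p G 1).1) = ⊥ ∧
        IsPSolvable p (G ⧸ (upperPSeries p G 1).1) := by
    intro p _
    constructor
    · exact Helper4.pPrimeCore_quot_comap_eq_bot (upperPSeries p G 0).1 (upperPSeries p G 1).1
        (Helper3.upperPSeries_one p G)
    · exact Helper4.isPSolvable_quotient (isPSolvable_of_solvable p _ G rfl hsolv) _
  have h6q : ∀ p : ℕ, ∀ y : G ⧸ (upperPSeries p G 1).1, y ^ 6 = 1 := by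
    intro p y
    obtain ⟨g, rfl⟩ := QuotientGroup.mk_surjective y
    rw [← QuotientGroup.mk_pow, h g]; rfl
  constructor
  · apply plength_one_of_index 2
    obtain ⟨hO, hs⟩ := key 2 h2f
    exact core2 (h6q 2) (Helper4.hh123 hs hO)
  · apply plength_one_of_index 3
    obtain ⟨hO, hs⟩ := key 3 h3f
    exact core3 (h6q 3) inferInstance (Helper4.hh123 hs hO)

end Cfsg.Agent.Helper3.Exp6
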