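import Mathlib
import Cfsg.Agent.Helper6.FrobNPC

set_option autoImplicit false

namespace Cfsg.Agent.Helper3.Focal
open Cfsg.Agent
open scoped commutatorElement

variable {G : Type*} [Group G]

theorem focal_mono {K H : Subgroup G} (h : K ≤ H) : K.focalSubgroup ≤ H.focalSubgroup := by
  apply Subgroup.closure_mono
  rintro g ⟨hg, x, hx, u, rfl⟩
  exact ⟨h hg, x, h hx, u, rfl⟩

/-- the chain `X ≥ [X,g] ≥ [X,g,g] ≥ …` -/
def ch (X : Subgroup G) (g : G) : ℕ → Subgroup G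
  | 0 => X
  | (i+1) => Subgroup.closure {c | ∃ x ∈ ch X g i, c = ⁅x, g⁆}

theorem ch_conj (X : Subgroup G) (g : G) (hg : ∀ x ∈ X, g * x * g⁻¹ ∈ X) :
    ∀ i, ∀ x ∈ ch X g i, g * x * g⁻¹ ∈ ch X g i
  | 0 => hg
  | (i+1) => by
    intro x hx
    induction hx using Subgroup.closure_induction with
    | mem z hz =>
      obtain ⟨y, hy, rfl⟩ := hz
      refine Subgroup.subset_closure ⟨g * y * g⁻¹, ch_conj X g hg i y hy, ?_⟩
      simp only [commutatorElement_def]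
      group
    | one => simp
    | mul a b _ _ iha ihb =>
      have : g * (a * b) * g⁻¹ = (g * a * g⁻¹) * (g * b * g⁻¹) := by group
      rw [this]; exact mul_mem iha ihb
    | inv a _ iha =>
      have : g * a⁻¹ * g⁻¹ = (g * a * g⁻¹)⁻¹ := by group
      rw [this]; exact inv_mem iha

theorem ch_succ_le (X : Subgroup G) (g : G) (hg : ∀ x ∈ X, g * x * g⁻¹ ∈ X) (i : ℕ) :
    ch X g (i+1) ≤ ch X g i := by
  show Subgroup.closure _ ≤ _
  rw [Subgroup.closure_le]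
  rintro c ⟨x, hx, rfl⟩
  have h1 := ch_conj X g hg i x⁻¹ (inv_mem hx)
  have : ⁅x, g⁆ = x * (g * x⁻¹ * g⁻¹) := by
    simp only [commutatorElement_def]; group
  rw [this]
  exact mul_mem hx h1

theorem ch_le (X : Subgroup G) (g : G) (hg : ∀ x ∈ X, g * x * g⁻¹ ∈ X) :
    ∀ i, ch X g i ≤ X
  | 0 => le_rfl
  | (i+1) => (ch_succ_le X g hg i).trans (ch_le X g hg i)

theorem ch_le_iter (X H : Subgroup G) (g : G) (hg : ∀ x ∈ X, g * x * g⁻¹ ∈ X) (hXH : X ≤ H) :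
    ∀ i, ch X g i ≤ (fun K : Subgroup G => Subgroup.focalSubgroup K)^[i] H
  | 0 => hXH
  | (i+1) => by
    rw [Function.iterate_succ_apply']
    show Subgroup.closure _ ≤ _
    rw [Subgroup.closure_le]
    rintro c ⟨x, hx, rfl⟩
    have ih := ch_le_iter X H g hg hXH i
    exact Subgroup.subset_closure
      ⟨ih (ch_succ_le X g hg i (Subgroup.subset_closure ⟨x, hx, rfl⟩)), x, ih hx, g, rfl⟩

theorem ch_step {p : ℕ} (X : Subgroup G) (g : G) (hg : ∀ x ∈ X, g * x * g⁻¹ ∈ X)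
    (hX : IsPGroup p X) (hgp : ∀ j : ℕ, ∃ m : ℕ, (g ^ p ^ j) ^ m = g) (i : ℕ)
    (h : ∀ y ∈ ch X g (i+1), g * y = y * g) : ∀ x ∈ ch X g i, g * x = x * g := by
  intro x hx
  have hc : ⁅x, g⁆ ∈ ch X g (i+1) := Subgroup.subset_closure ⟨x, hx, rfl⟩
  have hcX : ⁅x, g⁆ ∈ X := ch_le X g hg (i+1) hc
  obtain ⟨j, hj⟩ := hX ⟨⁅x, g⁆, hcX⟩
  have hj' : ⁅x, g⁆ ^ p ^ j = 1 := by
    have := congrArg Subtype.val hj
    simpa using this
  have hcg : Commute ⁅x, g⁆ g := (h _ hc).symm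
  have h1 : x * g * x⁻¹ = ⁅x, g⁆ * g := by
    simp only [commutatorElement_def]; group
  have h2 : x * g ^ p ^ j * x⁻¹ = g ^ p ^ j := by
    rw [← conj_pow, h1, hcg.mul_pow, hj', one_mul]
  have h3 : Commute x (g ^ p ^ j) := by
    show x * g ^ p ^ j = g ^ p ^ j * x
    rw [← mul_inv_eq_iff_eq_mul]; exact h2
  obtain ⟨m, hm⟩ := hgp j
  have h4 : Commute x g := by
    have := h3.pow_right m
    rwa [hm] at this
  exact h4.symm.eq

theorem ch_comm {p : ℕ} (X : Subgroup G) (g : G) (hg : ∀ x ∈ X, g * x * g⁻¹ ∈ X)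
    (hX : IsPGroup p X) (hgp : ∀ j : ℕ, ∃ m : ℕ, (g ^ p ^ j) ^ m = g) (n : ℕ)
    (hn : ch X g n = ⊥) : ∀ k i, i + k = n → ∀ x ∈ ch X g i, g * x = x * g
  | 0, i, hi => by
    intro x hx
    have : i = n := by omega
    rw [this, hn, Subgroup.mem_bot] at hx
    rw [hx, mul_one, one_mul]
  | (k+1), i, hi => by
    apply ch_step X g hg hX hgp i
    exact ch_comm X g hg hX hgp n hn k (i+1) (by omega)

theorem cent_of_le {p : ℕ} (H X : Subgroup G) (g : G) (hg : ∀ x ∈ X, g * x * g⁻¹ ∈ X)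
    (hX : IsPGroup p X) (hgp : ∀ j : ℕ, ∃ m : ℕ, (g ^ p ^ j) ^ m = g) (n : ℕ)
    (hfoc : (fun K : Subgroup G => Subgroup.focalSubgroup K)^[n] H = ⊥) (hXH : X ≤ H) :
    ∀ x ∈ X, g * x = x * g := by
  have h1 : ch X g n = ⊥ := by
    rw [eq_bot_iff, ← hfoc]
    exact ch_le_iter X H g hg hXH n
  exact ch_comm X g hg hX hgp n h1 n 0 (by omega)

theorem exists_conj_le [Finite G] {p : ℕ} [Fact p.Prime] (H X : Subgroup G)
    (hp : ¬ p ∣ H.index) (hX : IsPGroup p X) : ∃ b : G, ∀ x ∈ X, b * x * b⁻¹ ∈ H := by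
  have hne := hX.nonempty_fixed_point_of_prime_not_dvd_card (α := G ⧸ H)
    (by rwa [← Subgroup.index_eq_card])
  obtain ⟨q, hq⟩ := hne
  obtain ⟨a, rfl⟩ := QuotientGroup.mk_surjective q
  refine ⟨a⁻¹, fun x hx => ?_⟩
  have h1 := hq ⟨x⁻¹, inv_mem hx⟩
  have h2 : ((x⁻¹ * a : G) : G ⧸ H) = (a : G ⧸ H) := h1
  have h3 := QuotientGroup.eq.1 h2
  have : a⁻¹ * x * a⁻¹⁻¹ = (x⁻¹ * a)⁻¹ * a := by group
  rw [this]; exact h3

theorem main [Finite G] (H : Subgroup G) (hHall : (Nat.card H).Coprime H.index) (n : ℕ)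
    (hfoc : (fun K : Subgroup G => Subgroup.focalSubgroup K)^[n] H = ⊥) :
    ∃ N : Subgroup G, N.Normal ∧ Subgroup.IsComplement' N H := by
  classical
  have hK : ∀ p : ℕ, p.Prime → p ∣ Nat.card H → ∃ K : Subgroup G, Helper6.IsNPC p K := by
    intro p hp hpH
    haveI : Fact p.Prime := ⟨hp⟩
    apply Helper6.exists_isNPC_of_frobCond (Nat.card G) G rfl
    intro X hX g hg hcop
    have hpi : ¬ p ∣ H.index := fun h =>
      hp.one_lt.ne' (Nat.eq_one_of_dvd_coprimes hHall hpH h)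
    obtain ⟨b, hb⟩ := exists_conj_le H X hpi hX
    have hgp : ∀ j : ℕ, ∃ m : ℕ, (g ^ p ^ j) ^ m = g := fun j =>
      exists_pow_eq_self_of_coprime (Nat.Coprime.pow_left j hcop.symm)
    have hgp' : ∀ j : ℕ, ∃ m : ℕ, ((b * g * b⁻¹) ^ p ^ j) ^ m = b * g * b⁻¹ := by
      intro j
      obtain ⟨m, hm⟩ := hgp j
      exact ⟨m, by rw [conj_pow, conj_pow, hm]⟩
    have hX' : IsPGroup p (X.map (MulAut.conj b).toMonoidHom) := hX.map _
    have hle : X.map (MulAut.conj b).toMonoidHom ≤ H := by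
      rintro _ ⟨x, hx, rfl⟩
      exact hb x hx
    have hg' : ∀ y ∈ X.map (MulAut.conj b).toMonoidHom,
        (b * g * b⁻¹) * y * (b * g * b⁻¹)⁻¹ ∈ X.map (MulAut.conj b).toMonoidHom := by
      rintro _ ⟨x, hx, rfl⟩
      refine ⟨g * x * g⁻¹, (Subgroup.mem_normalizer_iff.1 hg x).1 hx, ?_⟩
      simp only [MulEquiv.coe_toMonoidHom, MulAut.conj_apply]
      group
    have hc := cent_of_le H _ _ hg' hX' hgp' n hfoc hle
    rw [Subgroup.mem_centralizer_iff]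
    intro x hx
    have h1 := hc (b * x * b⁻¹) ⟨x, hx, by simp [MulAut.conj_apply]⟩
    have h2 : b * (g * x) * b⁻¹ = b * (x * g) * b⁻¹ := by
      have e1 : b * (g * x) * b⁻¹ = b * g * b⁻¹ * (b * x * b⁻¹) := by group
      have e2 : b * (x * g) * b⁻¹ = b * x * b⁻¹ * (b * g * b⁻¹) := by group
      rw [e1, e2, h1]
    have h3 : g * x = x * g := by
      have := mul_left_cancel (mul_right_cancel h2)
      exact this
    exact h3.symm
  obtain ⟨N, hNdef⟩ : ∃ N : Subgroup G,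
      N = sInf {K | ∃ p : ℕ, p.Prime ∧ p ∣ Nat.card H ∧ Helper6.IsNPC p K} := ⟨_, rfl⟩
  have hmem : ∀ x : G, x ∈ N ↔ ∀ K : Subgroup G, ∀ p : ℕ, p.Prime → p ∣ Nat.card H →
      Helper6.IsNPC p K → x ∈ K := by
    intro x
    rw [hNdef, Subgroup.mem_sInf]
    constructor
    · intro h K p hp hpH hnpc
      exact h K ⟨p, hp, hpH, hnpc⟩
    · rintro h K ⟨p, hp, hpH, hnpc⟩
      exact h K p hp hpH hnpc
  have hN : N.Normal := ⟨fun x hx g => by
    rw [hmem] at hx ⊢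
    intro K p hp hpH hnpc
    exact hnpc.1.conj_mem x (hx K p hp hpH hnpc) g⟩
  have hdisj : Disjoint N H := by
    rw [Subgroup.disjoint_def]
    intro x hxN hxH
    by_contra hx1
    have ho : orderOf x ≠ 1 := fun h => hx1 (orderOf_eq_one_iff.1 h)
    obtain ⟨p, hp, hpd⟩ := Nat.exists_prime_and_dvd ho
    haveI : Fact p.Prime := ⟨hp⟩
    have hoH : orderOf x ∣ Nat.card H := by
      have := orderOf_dvd_natCard (⟨x, hxH⟩ : H)
      rwa [Subgroup.orderOf_mk] at this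
    have hpH : p ∣ Nat.card H := hpd.trans hoH
    obtain ⟨K, hnpc⟩ := hK p hp hpH
    have hxK : x ∈ K := (hmem x).1 hxN K p hp hpH hnpc
    have hcop := (hnpc.mem_iff x).1 hxK
    exact hp.one_lt.ne' (Nat.eq_one_of_dvd_coprimes hcop hpd (dvd_refl p))
  have hsup : N ⊔ H = ⊤ := by
    by_contra hne
    have hidx : (N ⊔ H).index ≠ 1 := fun h => hne (Subgroup.index_eq_one.1 h)
    obtain ⟨q, hq, hqd⟩ := Nat.exists_prime_and_dvd hidx
    haveI : Fact q.Prime := ⟨hq⟩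
    have hqH : q ∣ H.index := hqd.trans (Subgroup.index_dvd_of_le le_sup_right)
    have hqN : q ∣ N.index := hqd.trans (Subgroup.index_dvd_of_le le_sup_left)
    rw [Subgroup.index_eq_card] at hqN
    obtain ⟨y, hy⟩ := exists_prime_orderOf_dvd_card' q hqN
    obtain ⟨x, rfl⟩ := QuotientGroup.mk_surjective y
    have hxN : x ∉ N := fun h => by
      have : ((x : G) : G ⧸ N) = 1 := (QuotientGroup.eq_one_iff x).2 h
      rw [this, orderOf_one] at hy
      exact hq.one_lt.ne hy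
    have hxq : x ^ q ∈ N := by
      rw [← QuotientGroup.eq_one_iff, QuotientGroup.mk_pow, ← hy, pow_orderOf_eq_one]
    apply hxN
    rw [hmem]
    intro K p hp hpH hnpc
    obtain ⟨k, hk⟩ := hnpc.2.2 x
    have hxqK : x ^ q ∈ K := (hmem _).1 hxq K p hp hpH hnpc
    have hqp : Nat.Coprime q (p ^ k) := by
      apply Nat.Coprime.pow_right
      rw [Nat.coprime_primes hq hp]
      rintro rfl
      exact hq.one_lt.ne' (Nat.eq_one_of_dvd_coprimes hHall hpH hqH)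
    have hb := Nat.gcd_eq_gcd_ab q (p ^ k)
    rw [hqp.gcd_eq_one] at hb
    have : x = (x ^ q) ^ (Nat.gcdA q (p^k)) * (x ^ (p ^ k)) ^ (Nat.gcdB q (p^k)) := by
      rw [← zpow_natCast, ← zpow_natCast, ← zpow_mul, ← zpow_mul, ← zpow_add, ← hb]; simp
    rw [this]
    exact mul_mem (zpow_mem hxqK _) (zpow_mem hk _)
  refine ⟨N, hN, Subgroup.isComplement'_of_disjoint_and_mul_eq_univ hdisj ?_⟩
  rw [← Subgroup.normal_mul, hsup]; rfl

end Cfsg.Agent.Helper3.Focal
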