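import Mathlib
import Cfsg.Prelude.Def_ConjugacyFunctors

set_option autoImplicit false

namespace Cfsg.Agent.Helper3.KInf

variable {P : Type*} [Group P]

theorem upper_anti {R R' : Subgroup P} (h : R ≤ R') :
    Cfsg.kUpperStarFamily R' ⊆ Cfsg.kUpperStarFamily R := by
  rintro B ⟨h2, hc⟩
  exact ⟨h2, (Subgroup.commutator_mono le_rfl h).trans hc⟩

theorem lower_anti {R R' : Subgroup P} (h : R ≤ R') :
    Cfsg.kLowerStarFamily R' ⊆ Cfsg.kLowerStarFamily R := by
  rintro B ⟨h2, hn, hA⟩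
  exact ⟨h2, h.trans hn, fun A hA2 hAR => hA A hA2 (hAR.trans h)⟩

theorem map_cent_iff (Q : Subgroup P) (H K : Subgroup ↥Q) :
    H.map Q.subtype ≤ Subgroup.centralizer ((K.map Q.subtype : Subgroup P) : Set P) ↔
      H ≤ Subgroup.centralizer (K : Set ↥Q) := by
  rw [← Subgroup.commutator_eq_bot_iff_le_centralizer, ← Subgroup.commutator_eq_bot_iff_le_centralizer,
    ← Subgroup.map_commutator, Subgroup.map_eq_bot_iff_of_injective _ Q.subtype_injective]

theorem map_center (Q : Subgroup P) (B : Subgroup ↥Q) :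
    (B ⊓ Subgroup.centralizer (B : Set ↥Q)).map Q.subtype =
      B.map Q.subtype ⊓ Subgroup.centralizer ((B.map Q.subtype : Subgroup P) : Set P) := by
  apply le_antisymm
  · exact le_inf (Subgroup.map_mono inf_le_left) ((map_cent_iff Q _ B).2 inf_le_right)
  · intro x hx
    obtain ⟨hx1, hx2⟩ := Subgroup.mem_inf.1 hx
    obtain ⟨y, hy, rfl⟩ := Subgroup.mem_map.1 hx1
    refine Subgroup.mem_map.2 ⟨y, Subgroup.mem_inf.2 ⟨hy, ?_⟩, rfl⟩
    rw [Subgroup.mem_centralizer_iff]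
    intro h hh
    have h3 := (Subgroup.mem_centralizer_iff.1 hx2) (Q.subtype h) (Subgroup.mem_map_of_mem _ hh)
    apply Q.subtype_injective
    rw [map_mul, map_mul]
    exact h3

theorem map_norm_iff (Q : Subgroup P) (H K : Subgroup ↥Q) :
    H.map Q.subtype ≤ Subgroup.normalizer ((K.map Q.subtype : Subgroup P) : Set P) ↔
      H ≤ Subgroup.normalizer (K : Set ↥Q) := by
  constructor
  · intro h r hr
    have h1 := h (Subgroup.mem_map_of_mem Q.subtype hr)
    rw [Subgroup.mem_normalizer_iff] at h1 ⊢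
    intro n
    have h2 := h1 (Q.subtype n)
    rw [← map_inv, ← map_mul, ← map_mul] at h2
    constructor
    · intro hn
      obtain ⟨b, hb, hbe⟩ := Subgroup.mem_map.1 (h2.1 (Subgroup.mem_map_of_mem _ hn))
      have : b = r * n * r⁻¹ := Q.subtype_injective hbe
      rw [← this]; exact hb
    · intro hn
      obtain ⟨b, hb, hbe⟩ := Subgroup.mem_map.1 (h2.2 (Subgroup.mem_map_of_mem _ hn))
      have : b = n := Q.subtype_injective hbe
      rw [← this]; exact hb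
  · intro h x hx
    obtain ⟨r, hr, rfl⟩ := Subgroup.mem_map.1 hx
    have h1 := h hr
    rw [Subgroup.mem_normalizer_iff] at h1 ⊢
    intro n
    constructor
    · intro hn
      obtain ⟨b, hb, rfl⟩ := Subgroup.mem_map.1 hn
      rw [← map_inv, ← map_mul, ← map_mul]
      exact Subgroup.mem_map_of_mem _ ((h1 b).1 hb)
    · intro hn
      obtain ⟨b, hb, hbe⟩ := Subgroup.mem_map.1 hn
      have h4 : n = Q.subtype (r⁻¹ * b * r) := by
        rw [map_mul, map_mul, hbe, map_inv]; group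
      rw [h4]
      refine Subgroup.mem_map_of_mem _ ?_
      refine (h1 (r⁻¹ * b * r)).2 ?_
      have h5 : r * (r⁻¹ * b * r) * r⁻¹ = b := by group
      rw [h5]; exact hb

theorem map_classTwo_iff (Q : Subgroup P) (B : Subgroup ↥Q) :
    B.map Q.subtype ∈ Cfsg.classTwoSubgroups P ↔ B ∈ Cfsg.classTwoSubgroups ↥Q := by
  show ⁅B.map Q.subtype, B.map Q.subtype⁆ ≤ _ ↔ ⁅B, B⁆ ≤ _
  rw [← Subgroup.map_commutator]
  exact map_cent_iff Q _ B

theorem map_upper_iff (Q : Subgroup P) (R B : Subgroup ↥Q) :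
    B.map Q.subtype ∈ Cfsg.kUpperStarFamily (R.map Q.subtype) ↔ B ∈ Cfsg.kUpperStarFamily R := by
  show (_ ∧ ⁅B.map Q.subtype, R.map Q.subtype⁆ ≤ _) ↔ (_ ∧ ⁅B, R⁆ ≤ _)
  rw [map_classTwo_iff, ← Subgroup.map_commutator, ← map_center,
    Subgroup.map_le_map_iff_of_injective Q.subtype_injective]

theorem map_lower_iff (Q : Subgroup P) (R B : Subgroup ↥Q) :
    B.map Q.subtype ∈ Cfsg.kLowerStarFamily (R.map Q.subtype) ↔ B ∈ Cfsg.kLowerStarFamily R := by
  constructor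
  · rintro ⟨h2, hn, hA⟩
    refine ⟨(map_classTwo_iff Q B).1 h2, (map_norm_iff Q R B).1 hn, ?_⟩
    intro A hA2 hAR hBA h1 h3
    have h4 := hA (A.map Q.subtype) ((map_classTwo_iff Q A).2 hA2) (Subgroup.map_mono hAR)
      ((map_norm_iff Q B A).2 hBA)
      (by rw [← Subgroup.map_commutator, ← Subgroup.map_commutator, h1, Subgroup.map_bot])
      (by rw [← map_center, ← Subgroup.map_commutator, ← Subgroup.map_commutator, h3, Subgroup.map_bot])
    rw [← Subgroup.map_commutator, ← map_center,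
      Subgroup.map_le_map_iff_of_injective Q.subtype_injective] at h4
    exact h4
  · rintro ⟨h2, hn, hA⟩
    refine ⟨(map_classTwo_iff Q B).2 h2, (map_norm_iff Q R B).2 hn, ?_⟩
    intro A' hA2 hAR hBA h1 h3
    have hAQ : A' ≤ Q := by
      intro x hx
      obtain ⟨y, -, rfl⟩ := Subgroup.mem_map.1 (hAR hx)
      exact y.2
    obtain ⟨A, rfl⟩ : ∃ A : Subgroup ↥Q, A.map Q.subtype = A' :=
      ⟨A'.subgroupOf Q, Subgroup.map_subgroupOf_eq_of_le hAQ⟩
    rw [← Subgroup.map_commutator, ← map_center,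
      Subgroup.map_le_map_iff_of_injective Q.subtype_injective]
    refine hA A ((map_classTwo_iff Q A).1 hA2)
      ((Subgroup.map_le_map_iff_of_injective Q.subtype_injective).1 hAR)
      ((map_norm_iff Q B A).1 hBA) ?_ ?_
    · rw [← Subgroup.map_commutator, ← Subgroup.map_commutator,
        Subgroup.map_eq_bot_iff_of_injective _ Q.subtype_injective] at h1
      exact h1
    · rw [← map_center, ← Subgroup.map_commutator, ← Subgroup.map_commutator,
        Subgroup.map_eq_bot_iff_of_injective _ Q.subtype_injective] at h3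
      exact h3

theorem map_sSup_upper_le (Q : Subgroup P) (R : Subgroup ↥Q) :
    (sSup (Cfsg.kUpperStarFamily R)).map Q.subtype ≤
      sSup (Cfsg.kUpperStarFamily (R.map Q.subtype)) := by
  rw [Subgroup.map_le_iff_le_comap]
  refine sSup_le fun B hB => ?_
  rw [← Subgroup.map_le_iff_le_comap]
  exact le_sSup ((map_upper_iff Q R B).2 hB)

theorem map_sSup_lower_le (Q : Subgroup P) (R : Subgroup ↥Q) :
    (sSup (Cfsg.kLowerStarFamily R)).map Q.subtype ≤
      sSup (Cfsg.kLowerStarFamily (R.map Q.subtype)) := by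
  rw [Subgroup.map_le_iff_le_comap]
  refine sSup_le fun B hB => ?_
  rw [← Subgroup.map_le_iff_le_comap]
  exact le_sSup ((map_lower_iff Q R B).2 hB)

theorem le_map_sSup_upper (Q : Subgroup P) (R : Subgroup ↥Q) (R' : Subgroup P)
    (hR : R.map Q.subtype ≤ R') (hQ : sSup (Cfsg.kUpperStarFamily R') ≤ Q) :
    sSup (Cfsg.kUpperStarFamily R') ≤ (sSup (Cfsg.kUpperStarFamily R)).map Q.subtype := by
  refine sSup_le fun B' hB' => ?_
  have hBQ : B' ≤ Q := (le_sSup hB').trans hQ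
  obtain ⟨B, rfl⟩ : ∃ B : Subgroup ↥Q, B.map Q.subtype = B' :=
    ⟨B'.subgroupOf Q, Subgroup.map_subgroupOf_eq_of_le hBQ⟩
  exact Subgroup.map_mono (le_sSup ((map_upper_iff Q R B).1 (upper_anti hR hB')))

theorem le_map_sSup_lower (Q : Subgroup P) (R : Subgroup ↥Q) (R' : Subgroup P)
    (hR : R.map Q.subtype ≤ R') (hQ : sSup (Cfsg.kLowerStarFamily R') ≤ Q) :
    sSup (Cfsg.kLowerStarFamily R') ≤ (sSup (Cfsg.kLowerStarFamily R)).map Q.subtype := by
  refine sSup_le fun B' hB' => ?_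
  have hBQ : B' ≤ Q := (le_sSup hB').trans hQ
  obtain ⟨B, rfl⟩ : ∃ B : Subgroup ↥Q, B.map Q.subtype = B' :=
    ⟨B'.subgroupOf Q, Subgroup.map_subgroupOf_eq_of_le hBQ⟩
  exact Subgroup.map_mono (le_sSup ((map_lower_iff Q R B).1 (lower_anti hR hB')))

theorem kinf_main {P : Type*} [Group P] [Finite P] (Q : Subgroup P)
    (hQ : ∀ n : ℕ, Cfsg.kSeqEven P n ≤ Q ∧ Cfsg.kSeqOdd P (n + 1) ≤ Q) :
    (Cfsg.kInfLower ↥Q).map Q.subtype = Cfsg.kInfLower P ∧
      (Cfsg.kInfUpper ↥Q).map Q.subtype = Cfsg.kInfUpper P := by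
  have hodd_succ : ∀ n, Cfsg.kSeqOdd P (n+1) =
      sSup (Cfsg.kUpperStarFamily (Cfsg.kSeqEven P n)) := fun n => rfl
  have heven : ∀ n, Cfsg.kSeqEven P n =
      sSup (Cfsg.kLowerStarFamily (Cfsg.kSeqOdd P n)) := fun n => rfl
  have hzero : Cfsg.kSeqOdd P 0 = ⊤ := rfl
  have hanti : ∀ n, Cfsg.kSeqOdd P (n+1) ≤ Cfsg.kSeqOdd P n := by
    intro n
    induction n with
    | zero => rw [hzero]; exact le_top
    | succ k ih =>
      rw [hodd_succ (k+1), hodd_succ k]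
      refine sSup_le_sSup (upper_anti ?_)
      rw [heven, heven]
      exact sSup_le_sSup (lower_anti ih)
  obtain ⟨N, hN⟩ : ∃ N, Cfsg.kSeqOdd P (N+1) = Cfsg.kSeqOdd P N := by
    obtain ⟨N, -, hN⟩ := WellFounded.has_min
      (measure fun n => Nat.card (Cfsg.kSeqOdd P n)).wf Set.univ ⟨0, trivial⟩
    refine ⟨N, Subgroup.eq_of_le_of_card_ge (hanti N) ?_⟩
    have h1 := hN (N+1) trivial
    exact not_lt.1 h1
  obtain ⟨Y, hY⟩ : ∃ Y, Y = Cfsg.kSeqOdd P N := ⟨_, rfl⟩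
  obtain ⟨X, hX⟩ : ∃ X, X = Cfsg.kSeqEven P N := ⟨_, rfl⟩
  have hUX : sSup (Cfsg.kUpperStarFamily X) = Y := by
    rw [hX, hY, ← hodd_succ]; exact hN
  have hLY : sSup (Cfsg.kLowerStarFamily Y) = X := by
    rw [hX, hY, heven]
  have hXQ : X ≤ Q := by rw [hX]; exact (hQ N).1
  have hYQ : Y ≤ Q := by rw [hY, ← hN]; exact (hQ N).2
  have hoddQ : ∀ n, Cfsg.kSeqOdd ↥Q (n+1) =
      sSup (Cfsg.kUpperStarFamily (Cfsg.kSeqEven ↥Q n)) := fun n => rfl
  have hevenQ : ∀ n, Cfsg.kSeqEven ↥Q n =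
      sSup (Cfsg.kLowerStarFamily (Cfsg.kSeqOdd ↥Q n)) := fun n => rfl
  have htop : (Cfsg.kSeqOdd ↥Q 0).map Q.subtype = Q := by
    show (⊤ : Subgroup ↥Q).map Q.subtype = Q
    rw [← MonoidHom.range_eq_map, Subgroup.range_subtype]
  have c1 : ∀ n, Cfsg.kSeqEven P n ≤ (Cfsg.kSeqEven ↥Q n).map Q.subtype ∧
      (Cfsg.kSeqOdd ↥Q (n+1)).map Q.subtype ≤ Cfsg.kSeqOdd P (n+1) := by
    have step : ∀ n, Cfsg.kSeqEven P n ≤ (Cfsg.kSeqEven ↥Q n).map Q.subtype →
        (Cfsg.kSeqOdd ↥Q (n+1)).map Q.subtype ≤ Cfsg.kSeqOdd P (n+1) := by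
      intro n h
      rw [hoddQ, hodd_succ]
      exact (map_sSup_upper_le Q _).trans (sSup_le_sSup (upper_anti h))
    have stepE : ∀ n, (Cfsg.kSeqOdd ↥Q n).map Q.subtype ≤ Cfsg.kSeqOdd P n →
        Cfsg.kSeqEven P n ≤ (Cfsg.kSeqEven ↥Q n).map Q.subtype := by
      intro n h
      rw [hevenQ, heven]
      exact le_map_sSup_lower Q _ _ h (by rw [← heven]; exact (hQ n).1)
    intro n
    induction n with
    | zero =>
      have h0 := stepE 0 (by rw [hzero]; exact le_top)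
      exact ⟨h0, step 0 h0⟩
    | succ k ih =>
      have h1 := stepE (k+1) ih.2
      exact ⟨h1, step (k+1) h1⟩
  have c2 : ∀ n, Y ≤ (Cfsg.kSeqOdd ↥Q n).map Q.subtype ∧
      (Cfsg.kSeqEven ↥Q n).map Q.subtype ≤ X := by
    have stepE : ∀ n, Y ≤ (Cfsg.kSeqOdd ↥Q n).map Q.subtype →
        (Cfsg.kSeqEven ↥Q n).map Q.subtype ≤ X := by
      intro n h
      rw [hevenQ]
      refine (map_sSup_lower_le Q _).trans ?_
      rw [← hLY]
      exact sSup_le_sSup (lower_anti h)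
    have stepO : ∀ n, (Cfsg.kSeqEven ↥Q n).map Q.subtype ≤ X →
        Y ≤ (Cfsg.kSeqOdd ↥Q (n+1)).map Q.subtype := by
      intro n h
      rw [hoddQ, ← hUX]
      exact le_map_sSup_upper Q _ _ h (by rw [hUX]; exact hYQ)
    intro n
    induction n with
    | zero =>
      have h0 : Y ≤ (Cfsg.kSeqOdd ↥Q 0).map Q.subtype := by rw [htop]; exact hYQ
      exact ⟨h0, stepE 0 h0⟩
    | succ k ih =>
      have h1 := stepO k ih.2
      exact ⟨h1, stepE (k+1) h1⟩
  constructor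
  · apply le_antisymm
    · show (⨆ n, Cfsg.kSeqEven ↥Q n).map Q.subtype ≤ ⨆ n, Cfsg.kSeqEven P n
      rw [Subgroup.map_iSup]
      refine iSup_le fun n => ((c2 n).2).trans ?_
      rw [hX]
      exact le_iSup (fun n => Cfsg.kSeqEven P n) N
    · show (⨆ n, Cfsg.kSeqEven P n) ≤ (⨆ n, Cfsg.kSeqEven ↥Q n).map Q.subtype
      rw [Subgroup.map_iSup]
      exact iSup_mono fun n => (c1 n).1
  · apply le_antisymm
    · show (⨅ n, Cfsg.kSeqOdd ↥Q n).map Q.subtype ≤ ⨅ n, Cfsg.kSeqOdd P n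
      refine le_iInf fun n => ?_
      cases n with
      | zero => rw [hzero]; exact le_top
      | succ k => exact (Subgroup.map_mono (iInf_le _ (k+1))).trans (c1 k).2
    · show (⨅ n, Cfsg.kSeqOdd P n) ≤ (⨅ n, Cfsg.kSeqOdd ↥Q n).map Q.subtype
      intro x hx
      have hxY : x ∈ Y := by
        rw [hY]; exact (iInf_le (fun n => Cfsg.kSeqOdd P n) N) hx
      have hxQ : x ∈ Q := hYQ hxY
      refine Subgroup.mem_map.2 ⟨⟨x, hxQ⟩, ?_, rfl⟩
      rw [Subgroup.mem_iInf]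
      intro n
      obtain ⟨y, hy, hyx⟩ := Subgroup.mem_map.1 ((c2 n).1 hxY)
      have h5 : y = ⟨x, hxQ⟩ := Subtype.ext hyx
      rw [← h5]; exact hy

end Cfsg.Agent.Helper3.KInf
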