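import Mathlib
import Cfsg.Prelude.Def_Characters
import Cfsg.Agent.Lead.CharCore5

namespace Cfsg.Agent.Helper3

open scoped ComplexConjugate

/-- a function that is an irreducible character up to sign is a signed irreducible character -/
theorem signed_irr_decomp {X : Type*} [Group X] {f : X → ℂ}
    (h : Cfsg.IsIrrCharacter X f ∨ Cfsg.IsIrrCharacter X (-f)) :
    ∃ (χ : Cfsg.IrrCharacter X) (s : ℂ), (s = 1 ∨ s = -1) ∧ f = s • (χ : X → ℂ) := by
  rcases h with h | h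
  · exact ⟨⟨f, h⟩, 1, Or.inl rfl, by simp⟩
  · exact ⟨⟨-f, h⟩, -1, Or.inr rfl, by simp⟩

theorem classInner_signed {X : Type*} [Group X] [Fintype X] (χ₁ χ₂ : Cfsg.IrrCharacter X)
    [Decidable (χ₁ = χ₂)]
    (s₁ s₂ : ℂ) (hs₂ : s₂ = 1 ∨ s₂ = -1) :
    Cfsg.classInner (s₁ • (χ₁ : X → ℂ)) (s₂ • (χ₂ : X → ℂ))
      = s₁ * s₂ * (if χ₁ = χ₂ then 1 else 0) := by
  rw [Lead.classInner_smul_left, Lead.classInner_smul_right, Lead.classInner_irr]
  have hc : conj s₂ = s₂ := by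
    rcases hs₂ with rfl | rfl <;> simp
  rw [hc]
  ring

/-- two signed irreducible characters are orthogonal or equal up to sign -/
theorem signed_irr_inner {X : Type*} [Group X] [Fintype X] {f g : X → ℂ}
    (hf : Cfsg.IsIrrCharacter X f ∨ Cfsg.IsIrrCharacter X (-f))
    (hg : Cfsg.IsIrrCharacter X g ∨ Cfsg.IsIrrCharacter X (-g)) :
    Cfsg.classInner f g = 0 ∨
      ∃ s : ℂ, (s = 1 ∨ s = -1) ∧ f = s • g ∧ Cfsg.classInner f g = s := by
  classical
  obtain ⟨χ₁, s₁, hs₁, rfl⟩ := signed_irr_decomp hf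
  obtain ⟨χ₂, s₂, hs₂, rfl⟩ := signed_irr_decomp hg
  rw [classInner_signed χ₁ χ₂ s₁ s₂ hs₂]
  by_cases h : χ₁ = χ₂
  · right
    subst h
    refine ⟨s₁ * s₂, ?_, ?_, by simp⟩
    · rcases hs₁ with rfl | rfl <;> rcases hs₂ with rfl | rfl <;> simp
    · rw [smul_smul]
      have : s₁ * s₂ * s₂ = s₁ := by
        rcases hs₂ with rfl | rfl <;> simp
      rw [this]
  · left
    rw [if_neg h, mul_zero]

theorem signed_irr_self {X : Type*} [Group X] [Fintype X] {f : X → ℂ}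
    (hf : Cfsg.IsIrrCharacter X f ∨ Cfsg.IsIrrCharacter X (-f)) :
    Cfsg.classInner f f = 1 := by
  classical
  obtain ⟨χ₁, s₁, hs₁, rfl⟩ := signed_irr_decomp hf
  rw [classInner_signed χ₁ χ₁ s₁ s₁ hs₁, if_pos rfl]
  rcases hs₁ with rfl | rfl <;> simp

theorem signed_irr_one {X : Type*} [Group X] {f : X → ℂ}
    (hf : Cfsg.IsIrrCharacter X f ∨ Cfsg.IsIrrCharacter X (-f)) :
    ∃ r : ℝ, r ≠ 0 ∧ f 1 = (r : ℂ) := by
  rcases hf with h | h
  · obtain ⟨n, hn, h1⟩ := Lead.isIrrCharacter_one_eq_nat h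
    refine ⟨(n : ℝ), by exact_mod_cast hn.ne', ?_⟩
    rw [h1]; simp
  · obtain ⟨n, hn, h1⟩ := Lead.isIrrCharacter_one_eq_nat h
    refine ⟨-(n : ℝ), by simpa using hn.ne', ?_⟩
    have : f 1 = -((-f) 1) := by simp
    rw [this, h1]; simp

end Cfsg.Agent.Helper3
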