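import Mathlib
import Cfsg.Prelude
import Cfsg.Agent.Helper3.ElemAb
import Cfsg.Agent.Helper4.Basic

set_option autoImplicit false

namespace Cfsg.Agent.Helper3

universe u

variable {G : Type u} [Group G]

/-- if `D/C` is a normal `p`-subgroup of `G/C` then `D ≤ S C` for every Sylow `p`-subgroup `S`. -/
theorem exists_sylow_mul_of_pow_mem [Finite G] {p : ℕ} [Fact p.Prime] (C D : Subgroup G)
    [C.Normal] [D.Normal] (hp : ∀ d ∈ D, ∃ k : ℕ, d ^ p ^ k ∈ C) (S : Sylow p G) :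
    ∀ d ∈ D, ∃ s ∈ (S : Subgroup G), s⁻¹ * d ∈ C := by
  intro d hd
  have hsurj : Function.Surjective (QuotientGroup.mk' C) := QuotientGroup.mk'_surjective C
  haveI hn : (D.map (QuotientGroup.mk' C)).Normal := Subgroup.Normal.map inferInstance _ hsurj
  have hpg : IsPGroup p (D.map (QuotientGroup.mk' C)) := by
    rintro ⟨x, hx⟩
    obtain ⟨e, he, rfl⟩ := hx
    obtain ⟨k, hk⟩ := hp e he
    refine ⟨k, ?_⟩
    apply Subtype.ext
    rw [SubmonoidClass.coe_pow]
    show (QuotientGroup.mk' C e) ^ p ^ k = 1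
    rw [← map_pow]
    exact (QuotientGroup.eq_one_iff _).2 hk
  have hle := hpg.le_sylow_of_normal (S.mapSurjective hsurj)
  have h1 : QuotientGroup.mk' C d ∈ ((S.mapSurjective hsurj : Sylow p (G ⧸ C)) : Subgroup (G ⧸ C)) :=
    hle ⟨d, hd, rfl⟩
  rw [Sylow.coe_mapSurjective] at h1
  obtain ⟨s, hs, hsd⟩ := h1
  exact ⟨s, hs, QuotientGroup.eq.1 hsd⟩

theorem le_centralizer_sylow_fixed [Finite G] {p : ℕ} [Fact p.Prime] (V D : Subgroup G)
    [V.Normal] [D.Normal] (hp : ∀ d ∈ D, ∃ k : ℕ, d ^ p ^ k ∈ Subgroup.centralizer (V : Set G))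
    (S : Sylow p G) :
    D ≤ Subgroup.centralizer ((V ⊓ Subgroup.centralizer ((S : Subgroup G) : Set G) : Subgroup G) : Set G) := by
  intro d hd
  obtain ⟨s, hs, hc⟩ := exists_sylow_mul_of_pow_mem (Subgroup.centralizer (V : Set G)) D hp S d hd
  refine Subgroup.mem_centralizer_iff.2 ?_
  intro v hv
  have hv1 : v ∈ V := (Subgroup.mem_inf.1 hv).1
  have hv2 : v ∈ Subgroup.centralizer ((S : Subgroup G) : Set G) := (Subgroup.mem_inf.1 hv).2
  have h1 : s * v = v * s := Subgroup.mem_centralizer_iff.1 hv2 s hs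
  have h2 : v * (s⁻¹ * d) = (s⁻¹ * d) * v := Subgroup.mem_centralizer_iff.1 hc v hv1
  have h3 : d = s * (s⁻¹ * d) := by group
  rw [h3, ← mul_assoc, ← h1, mul_assoc, mul_assoc, h2]

/-- if `V` is generated by the fixed points of the Sylow `p`-subgroups, then `O_p(G/C_G(V)) = 1`
(in the form: a normal subgroup which is a `p`-group modulo `C_G(V)` centralizes `V`). -/
theorem le_centralizer_of_gen_sylow_fixed [Finite G] {p : ℕ} [Fact p.Prime] (V D : Subgroup G)
    [V.Normal] [D.Normal] (hp : ∀ d ∈ D, ∃ k : ℕ, d ^ p ^ k ∈ Subgroup.centralizer (V : Set G))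
    (hgen : V ≤ ⨆ S : Sylow p G, V ⊓ Subgroup.centralizer ((S : Subgroup G) : Set G)) :
    D ≤ Subgroup.centralizer (V : Set G) := by
  rw [Subgroup.le_centralizer_iff]
  refine hgen.trans (iSup_le ?_)
  intro S
  rw [Subgroup.le_centralizer_iff]
  exact le_centralizer_sylow_fixed V D hp S

theorem omegaOne_le (p : ℕ) (H : Subgroup G) : Cfsg.omegaOne p H ≤ H :=
  (Subgroup.closure_le _).2 (fun _ hx => hx.1)

theorem omegaOne_mono (p : ℕ) {H K : Subgroup G} (h : H ≤ K) :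
    Cfsg.omegaOne p H ≤ Cfsg.omegaOne p K :=
  Subgroup.closure_mono (fun _ hx => ⟨h hx.1, hx.2⟩)

theorem elemAb_omegaOne_of_comm {p : ℕ} {H : Subgroup G}
    (hH : ∀ a ∈ H, ∀ b ∈ H, a * b = b * a) : Cfsg.IsElementaryAbelian p (Cfsg.omegaOne p H) := by
  refine elemAb_mk (fun a ha b hb => hH a (omegaOne_le p H ha) b (omegaOne_le p H hb)) ?_
  intro a ha
  have key : a ∈ H ∧ a ^ p = 1 := by
    refine Subgroup.closure_induction (p := fun x _ => x ∈ H ∧ x ^ p = 1) ?_ ?_ ?_ ?_ ha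
    · intro x hx
      exact hx
    · exact ⟨H.one_mem, one_pow _⟩
    · intro x y _ _ hx hy
      have hc : Commute x y := hH x hx.1 y hy.1
      exact ⟨H.mul_mem hx.1 hy.1, by rw [hc.mul_pow, hx.2, hy.2, one_mul]⟩
    · intro x _ hx
      exact ⟨H.inv_mem hx.1, by rw [inv_pow, hx.2, inv_one]⟩
  exact key.2

end Cfsg.Agent.Helper3
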