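import Cfsg.Prelude.Def_OddOrderLocal
import Cfsg.Agent.Helper3.CNFrob
import Cfsg.Agent.Helper3.Layer2
import Cfsg.Agent.Helper3.Signalizer
import Cfsg.Agent.Lead.Coprime

/-! Cyclic pairs and type-P data (odd order local analysis). -/

set_option autoImplicit false

universe u

namespace Cfsg.Agent.Helper3

variable {G : Type u} [Group G]

/-- Two elements of a cyclic subgroup commute. -/
theorem comm_of_cyclic (Z : Subgroup G) (hZ : IsCyclic ↥Z) {a b : G} (ha : a ∈ Z) (hb : b ∈ Z) :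
    a * b = b * a := by
  obtain ⟨g, hg⟩ := hZ.exists_generator
  obtain ⟨i, hi⟩ := hg ⟨a, ha⟩
  obtain ⟨j, hj⟩ := hg ⟨b, hb⟩
  have h := (Commute.zpow_zpow_self g i j).eq
  have hi' : g ^ i = ⟨a, ha⟩ := hi
  have hj' : g ^ j = ⟨b, hb⟩ := hj
  rw [hi', hj'] at h
  exact congrArg Subtype.val h

/-- In a cyclic subgroup, an element of prime order `r` lies in the cyclic subgroup generated
by any other element of order `r`. -/
theorem mem_zpowers_of_cyclic [Finite G] (Z : Subgroup G) (hZ : IsCyclic ↥Z) {a b : G}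
    (ha : a ∈ Z) (hb : b ∈ Z) (r : ℕ) (hao : orderOf a = r) (hbo : orderOf b = r) :
    b ∈ Subgroup.zpowers a := by
  have hab : a * b = b * a := comm_of_cyclic Z hZ ha hb
  obtain ⟨T, hT⟩ : ∃ T : Subgroup G, T = Subgroup.zpowers a ⊔ Subgroup.zpowers b := ⟨_, rfl⟩
  have hTZ : T ≤ Z := by
    rw [hT]
    exact sup_le (Subgroup.zpowers_le.2 ha) (Subgroup.zpowers_le.2 hb)
  haveI : IsCyclic ↥Z := hZ
  haveI hTc : IsCyclic ↥T :=
    isCyclic_of_surjective (Subgroup.subgroupOfEquivOfLe hTZ).toMonoidHom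
      (Subgroup.subgroupOfEquivOfLe hTZ).surjective
  obtain ⟨t, ht⟩ := hTc.exists_generator
  have hnorm : Subgroup.zpowers b ≤ Subgroup.normalizer (Subgroup.zpowers a : Set G) := by
    rw [Subgroup.zpowers_le]
    apply centralizer_singleton_le_normalizer_zpowers a
    rw [Subgroup.mem_centralizer_iff]
    intro h hh
    rw [Set.mem_singleton_iff] at hh
    rw [hh]
    exact hab
  have htT : (t : G) ∈ Subgroup.zpowers a ⊔ Subgroup.zpowers b := by
    rw [← hT]
    exact t.2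
  obtain ⟨x, hx, y, hy, hxy⟩ := mem_sup_of_le_normalizer_right _ _ hnorm htT
  obtain ⟨m, rfl⟩ := Subgroup.mem_zpowers_iff.1 hx
  obtain ⟨n, rfl⟩ := Subgroup.mem_zpowers_iff.1 hy
  have hxr : (a ^ m) ^ r = 1 := by
    rw [← zpow_natCast, ← zpow_mul, mul_comm, zpow_mul, zpow_natCast, ← hao, pow_orderOf_eq_one,
      one_zpow]
  have hyr : (b ^ n) ^ r = 1 := by
    rw [← zpow_natCast, ← zpow_mul, mul_comm, zpow_mul, zpow_natCast, ← hbo, pow_orderOf_eq_one,
      one_zpow]
  have hcomm : Commute (a ^ m) (b ^ n) := Commute.zpow_zpow (show Commute a b from hab) m n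
  have htr : (t : G) ^ r = 1 := by
    rw [← hxy, hcomm.mul_pow, hxr, hyr, one_mul]
  have hto : orderOf t ∣ r := by
    rw [← Subgroup.orderOf_coe]
    exact orderOf_dvd_of_pow_eq_one htr
  have hcardT : Nat.card T = orderOf t := (orderOf_eq_card_of_forall_mem_zpowers ht).symm
  have hr0 : 0 < r := by
    rw [← hao]
    exact orderOf_pos a
  have hle : Nat.card T ≤ Nat.card (Subgroup.zpowers a) := by
    rw [Nat.card_zpowers, hao, hcardT]
    exact Nat.le_of_dvd hr0 hto
  have haT : Subgroup.zpowers a ≤ T := by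
    rw [hT]
    exact le_sup_left
  have hEq : Subgroup.zpowers a = T := Subgroup.eq_of_le_of_card_ge haT hle
  rw [hEq, hT]
  exact Subgroup.mem_sup_right (Subgroup.mem_zpowers b)

/-- Two subgroups with trivial intersection and cyclic join have coprime orders. -/
theorem coprime_of_cyclic [Finite G] (W₁ W₂ : Subgroup G) (hc : IsCyclic ↥(W₁ ⊔ W₂))
    (hinf : W₁ ⊓ W₂ = ⊥) : (Nat.card W₁).Coprime (Nat.card W₂) := by
  apply Nat.coprime_of_dvd
  intro r hr h1 h2
  haveI : Fact r.Prime := ⟨hr⟩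
  obtain ⟨a, ha⟩ := exists_prime_orderOf_dvd_card' r h1
  obtain ⟨b, hb⟩ := exists_prime_orderOf_dvd_card' r h2
  have hb' : (b : G) ∈ Subgroup.zpowers (a : G) :=
    mem_zpowers_of_cyclic (W₁ ⊔ W₂) hc (Subgroup.mem_sup_left a.2) (Subgroup.mem_sup_right b.2) r
      (by rw [Subgroup.orderOf_coe]; exact ha) (by rw [Subgroup.orderOf_coe]; exact hb)
  have hbW₁ : (b : G) ∈ W₁ := (Subgroup.zpowers_le.2 a.2) hb'
  have hmem : (b : G) ∈ W₁ ⊓ W₂ := ⟨hbW₁, b.2⟩
  rw [hinf, Subgroup.mem_bot] at hmem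
  have hb1 : b = 1 := Subtype.ext hmem
  rw [hb1, orderOf_one] at hb
  exact hr.one_lt.ne hb

/-- `M` normalizes the image of a normal subgroup of `M`. -/
theorem le_normalizer_map_subtype (M : Subgroup G) (N : Subgroup ↥M) [hN : N.Normal] :
    M ≤ Subgroup.normalizer ((N.map M.subtype : Subgroup G) : Set G) := by
  apply le_normalizer_of_conj_mem
  rintro m hm _ ⟨y, hy, rfl⟩
  exact ⟨⟨m, hm⟩ * y * ⟨m, hm⟩⁻¹, hN.conj_mem y hy ⟨m, hm⟩, rfl⟩

theorem le_normalizer_fittingHallOf (M : Subgroup G) :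
    M ≤ Subgroup.normalizer ((Cfsg.fittingHallOf M : Subgroup G) : Set G) :=
  le_normalizer_map_subtype M (Cfsg.fittingHall ↥M)

/-- In type-P data, `|H|` and `|U|` are coprime. -/
theorem typeP_coprime [Finite G] {M W₁ U W₂ : Subgroup G} (hP : Cfsg.IsTypePWith M W₁ U W₂) :
    (Nat.card ↥(Cfsg.fittingHallOf M)).Coprime (Nat.card ↥U) := by
  have hUM : U ≤ M := hP.U_compl.2.1.trans (Subgroup.commutator_le_self M)
  have hHM : Cfsg.fittingHallOf M ≤ M := Subgroup.map_subtype_le _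
  have hcard := Lead.card_sup_of_le_normalizer (Cfsg.fittingHallOf M) U
    (hUM.trans (le_normalizer_fittingHallOf M)) hP.U_compl.2.2.1
  have hdvd : Nat.card ↥(Cfsg.fittingHallOf M) * Nat.card ↥U ∣ Nat.card ↥M := by
    rw [← hcard]
    exact Subgroup.card_dvd_of_le (sup_le hHM hUM)
  have hH : Nat.card ↥(Cfsg.fittingHallOf M) = Nat.card ↥(Cfsg.fittingHall ↥M) :=
    Subgroup.card_map_of_injective M.subtype_injective
  have hM : Nat.card ↥M = Nat.card ↥(Cfsg.fittingHall ↥M) * (Cfsg.fittingHall ↥M).index :=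
    (Subgroup.card_mul_index _).symm
  rw [hM, hH] at hdvd
  have hU : Nat.card ↥U ∣ (Cfsg.fittingHall ↥M).index :=
    (Nat.mul_dvd_mul_iff_left Nat.card_pos).1 hdvd
  rw [hH]
  exact Nat.Coprime.coprime_dvd_right hU (fittingHall_spec ↥M).2

/-- In type-P data, `F(M) = H (U ∩ C(H))`. -/
theorem typeP_fitting [Finite G] {M W₁ U W₂ : Subgroup G} (hP : Cfsg.IsTypePWith M W₁ U W₂) :
    Cfsg.fittingOf M = Cfsg.fittingHallOf M ⊔
      (U ⊓ Subgroup.centralizer (Cfsg.fittingHallOf M : Set G)) := by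
  have hUM : U ≤ M := hP.U_compl.2.1.trans (Subgroup.commutator_le_self M)
  rw [← hP.fitting_eq]
  apply le_antisymm
  · refine sup_le le_sup_left ?_
    intro c hc
    have hcF : c ∈ Cfsg.fittingOf M := by
      rw [← hP.fitting_eq]
      exact Subgroup.mem_sup_right hc
    obtain ⟨h, hh, u, hu, hchu⟩ := hP.U_compl.2.2.2 c (hP.fitting_le hcF)
    have hch : h * c = c * h := Subgroup.mem_centralizer_iff.1 hc.2 h hh
    have huh : h * u = u * h := by
      have e : u = h⁻¹ * c := by rw [hchu]; group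
      rw [e]
      calc h * (h⁻¹ * c) = h⁻¹ * (h * c) := by group
        _ = h⁻¹ * (c * h) := by rw [hch]
        _ = h⁻¹ * c * h := by group
    have hcop := typeP_coprime hP
    obtain ⟨n, hn⟩ : ∃ n, n = Nat.card ↥(Cfsg.fittingHallOf M) := ⟨_, rfl⟩
    obtain ⟨m, hm⟩ : ∃ m, m = Nat.card ↥U := ⟨_, rfl⟩
    rw [← hn, ← hm] at hcop
    have hhn : h ^ n = 1 := by
      have h1 : (⟨h, hh⟩ : ↥(Cfsg.fittingHallOf M)) ^ n = 1 := by rw [hn]; exact pow_card_eq_one'
      have h2 := congrArg Subtype.val h1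
      rw [SubmonoidClass.coe_pow] at h2
      exact h2
    have hum : u ^ m = 1 := by
      have h1 : (⟨u, hu⟩ : ↥U) ^ m = 1 := by rw [hm]; exact pow_card_eq_one'
      have h2 := congrArg Subtype.val h1
      rw [SubmonoidClass.coe_pow] at h2
      exact h2
    have hcn : c ^ n = u ^ n := by
      rw [hchu, (show Commute h u from huh).mul_pow, hhn, one_mul]
    have hbez : (1 : ℤ) = (n : ℤ) * Nat.gcdA n m + (m : ℤ) * Nat.gcdB n m := by
      have h1 := Nat.gcd_eq_gcd_ab n m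
      rw [Nat.Coprime.gcd_eq_one hcop] at h1
      exact_mod_cast h1
    have hu_eq : u = (c ^ n) ^ (Nat.gcdA n m) := by
      have h1 : u = u ^ ((n : ℤ) * Nat.gcdA n m + (m : ℤ) * Nat.gcdB n m) := by
        rw [← hbez, zpow_one]
      rw [zpow_add, zpow_mul, zpow_mul, zpow_natCast, zpow_natCast, hum, one_zpow, mul_one] at h1
      rw [hcn]
      exact h1
    have huC : u ∈ Subgroup.centralizer (Cfsg.fittingHallOf M : Set G) := by
      rw [hu_eq]
      exact Subgroup.zpow_mem _ (Subgroup.pow_mem _ hc.2 n) _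
    rw [hchu]
    exact Subgroup.mul_mem _ (Subgroup.mem_sup_left hh) (Subgroup.mem_sup_right ⟨hu, huC⟩)
  · exact sup_le_sup_left (inf_le_inf_right _ hUM) _

end Cfsg.Agent.Helper3
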